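import Mathlib

set_option autoImplicit false

namespace Cfsg.Agent.Lib.Helper5.Jordan

open Equiv

variable {α : Type*} [Fintype α] [DecidableEq α]

/-- `H` acts `k`-transitively on the complement of `S`, in the form "fix a set of fewer than `k`
points pointwise and move one further point to another". -/
def E (H : Subgroup (Perm α)) (S : Finset α) (k : ℕ) : Prop :=
  ∀ U : Finset α, Disjoint U S → U.card < k → ∀ b₀ b₁ : α, b₀ ∉ S → b₀ ∉ U → b₁ ∉ S → b₁ ∉ U →
    ∃ g ∈ H, (∀ u ∈ U, g u = u) ∧ g b₀ = b₁

theorem E.mono {H : Subgroup (Perm α)} {S : Finset α} {k j : ℕ} (h : E H S k) (hj : j ≤ k) :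
    E H S j := fun U hU hc => h U hU (by omega)

theorem exists_notMem (T : Finset α) (h : T.card < Fintype.card α) : ∃ d, d ∉ T := by
  by_contra hcon
  push Not at hcon
  have : T = Finset.univ := Finset.eq_univ_iff_forall.2 hcon
  rw [this, Finset.card_univ] at h
  exact lt_irrefl _ h

theorem preserve {G : Subgroup (Perm α)} {S : Finset α} (GS : ∀ g ∈ G, ∀ s ∈ S, g s = s)
    {g : Perm α} (hg : g ∈ G) {y : α} (hy : y ∉ S) : g y ∉ S := by
  intro h
  have h1 := GS g hg _ h
  exact hy (by rw [← g.injective h1]; exact h)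

theorem E.stab {H : Subgroup (Perm α)} {S : Finset α} {k : ℕ} (h : E H S (k + 1)) (a : α)
    (ha : a ∉ S) : E (H ⊓ MulAction.stabilizer (Perm α) a) (insert a S) k := by
  intro U hU hc b₀ b₁ hb₀S hb₀U hb₁S hb₁U
  rw [Finset.disjoint_insert_right] at hU
  rw [Finset.mem_insert, not_or] at hb₀S hb₁S
  obtain ⟨g, hg, hgU, hgb⟩ := h (insert a U) (by
      rw [Finset.disjoint_insert_left]
      exact ⟨ha, hU.2⟩) (by
      rw [Finset.card_insert_of_notMem hU.1]
      omega) b₀ b₁ hb₀S.2 (by
      rw [Finset.mem_insert, not_or]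
      exact ⟨hb₀S.1, hb₀U⟩) hb₁S.2 (by
      rw [Finset.mem_insert, not_or]
      exact ⟨hb₁S.1, hb₁U⟩)
  exact ⟨g, ⟨hg, hgU a (Finset.mem_insert_self a U)⟩,
    fun u hu => hgU u (Finset.mem_insert_of_mem hu), hgb⟩

theorem trans_of_normal {G N : Subgroup (Perm α)} {S : Finset α}
    (GS : ∀ g ∈ G, ∀ s ∈ S, g s = s) (hNG : N ≤ G)
    (hnorm : ∀ g ∈ G, ∀ n ∈ N, g * n * g⁻¹ ∈ N) (hN : N ≠ ⊥) (hE : E G S 2) :
    ∀ u v, u ∉ S → v ∉ S → ∃ n ∈ N, n u = v := by
  obtain ⟨⟨n, hn⟩, hn1⟩ := (Subgroup.ne_bot_iff_exists_ne_one).1 hN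
  have hn1' : n ≠ 1 := fun h => hn1 (Subtype.ext h)
  obtain ⟨w, hw⟩ : ∃ w, n w ≠ w := by
    by_contra hcon
    push Not at hcon
    exact hn1' (Perm.ext hcon)
  have hwS : w ∉ S := fun h => hw (GS n (hNG hn) w h)
  have hnwS : n w ∉ S := preserve GS (hNG hn) hwS
  intro u v hu hv
  by_cases huv : u = v
  · exact ⟨1, N.one_mem, by simpa using huv⟩
  obtain ⟨g₁, hg₁, -, hg₁w⟩ := hE ∅ (Finset.disjoint_empty_left _) (by simp) w u hwS
    (Finset.notMem_empty _) hu (Finset.notMem_empty _)
  have hzS : g₁ (n w) ∉ S := preserve GS hg₁ hnwS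
  have hzu : g₁ (n w) ≠ u := by
    rw [← hg₁w]
    exact fun h => hw (g₁.injective h)
  obtain ⟨g₂, hg₂, hg₂u, hg₂z⟩ := hE {u} (by simpa using hu) (by simp) (g₁ (n w)) v hzS
    (by simpa using hzu) hv (by simpa using fun h : v = u => huv h.symm)
  refine ⟨(g₂ * g₁) * n * (g₂ * g₁)⁻¹, hnorm _ (G.mul_mem hg₂ hg₁) n hn, ?_⟩
  have h1 : (g₂ * g₁) w = u := by
    rw [Perm.mul_apply, hg₁w]
    exact hg₂u u (by simp)
  have h2 : (g₂ * g₁)⁻¹ u = w := by
    rw [Perm.inv_eq_iff_eq, h1]
  rw [Perm.mul_apply, Perm.mul_apply, h2, Perm.mul_apply]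
  exact hg₂z

theorem E.of_stab {N : Subgroup (Perm α)} {S : Finset α} {j : ℕ}
    (NS : ∀ n ∈ N, ∀ s ∈ S, n s = s)
    (tr : ∀ u v, u ∉ S → v ∉ S → ∃ n ∈ N, n u = v) (a : α) (ha : a ∉ S)
    (h : E (N ⊓ MulAction.stabilizer (Perm α) a) (insert a S) j) : E N S (j + 1) := by
  intro U hU hc b₀ b₁ hb₀S hb₀U hb₁S hb₁U
  rcases Finset.eq_empty_or_nonempty U with hUe | ⟨u₀, hu₀⟩
  · obtain ⟨n, hn, hnb⟩ := tr b₀ b₁ hb₀S hb₁S
    exact ⟨n, hn, by simp [hUe], hnb⟩
  have hu₀S : u₀ ∉ S := Finset.disjoint_left.1 hU hu₀
  obtain ⟨m, hm, hmu⟩ := tr u₀ a hu₀S ha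
  have hcard : ((U.erase u₀).image m).card < j := by
    have h1 := Finset.card_image_le (s := U.erase u₀) (f := m)
    have h2 := Finset.card_erase_of_mem hu₀
    have h3 : 0 < U.card := Finset.card_pos.2 ⟨u₀, hu₀⟩
    omega
  have hdisj : Disjoint ((U.erase u₀).image m) (insert a S) := by
    rw [Finset.disjoint_left]
    intro x hx
    rw [Finset.mem_image] at hx
    obtain ⟨u, hu, rfl⟩ := hx
    rw [Finset.mem_erase] at hu
    rw [Finset.mem_insert, not_or]
    refine ⟨?_, preserve NS hm (Finset.disjoint_left.1 hU hu.2)⟩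
    rw [← hmu]
    exact fun h => hu.1 (m.injective h)
  have hb : ∀ b, b ∉ S → b ∉ U → m b ∉ insert a S ∧ m b ∉ (U.erase u₀).image m := by
    intro b hbS hbU
    constructor
    · rw [Finset.mem_insert, not_or]
      refine ⟨?_, preserve NS hm hbS⟩
      rw [← hmu]
      intro h
      exact hbU (by rw [m.injective h]; exact hu₀)
    · rw [Finset.mem_image]
      rintro ⟨u, hu, huu⟩
      rw [Finset.mem_erase] at hu
      exact hbU (by rw [← m.injective huu]; exact hu.2)
  obtain ⟨n, hn, hnU, hnb⟩ := h _ hdisj hcard (m b₀) (m b₁) (hb b₀ hb₀S hb₀U).1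
    (hb b₀ hb₀S hb₀U).2 (hb b₁ hb₁S hb₁U).1 (hb b₁ hb₁S hb₁U).2
  rw [Subgroup.mem_inf, MulAction.mem_stabilizer_iff, Perm.smul_def] at hn
  refine ⟨m⁻¹ * n * m, N.mul_mem (N.mul_mem (N.inv_mem hm) hn.1) hm, ?_, ?_⟩
  · intro u hu
    rw [Perm.mul_apply, Perm.mul_apply, Perm.inv_eq_iff_eq]
    by_cases huu : u = u₀
    · rw [huu, hmu, hn.2]
    · exact hnU _ (Finset.mem_image_of_mem _ (Finset.mem_erase.2 ⟨huu, hu⟩))
  · rw [Perm.mul_apply, Perm.mul_apply, Perm.inv_eq_iff_eq]
    exact hnb

theorem E.tuple {H : Subgroup (Perm α)} {j : ℕ} (h : E H ∅ j) :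
    ∀ m, m ≤ j → ∀ x y : Fin m → α, Function.Injective x → Function.Injective y →
      ∃ g ∈ H, ∀ i, g (x i) = y i := by
  intro m
  induction m with
  | zero => intro _ x y _ _; exact ⟨1, H.one_mem, fun i => i.elim0⟩
  | succ m ih =>
    intro hm x y hx hy
    obtain ⟨h₁, hh₁, hh₁x⟩ := ih (by omega) (x ∘ Fin.castSucc) (y ∘ Fin.castSucc)
      (hx.comp (Fin.castSucc_injective m)) (hy.comp (Fin.castSucc_injective m))
    have hcard : (Finset.univ.image (y ∘ Fin.castSucc)).card < j := by
      have h1 := Finset.card_image_le (s := (Finset.univ : Finset (Fin m))) (f := y ∘ Fin.castSucc)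
      rw [Finset.card_univ, Fintype.card_fin] at h1
      omega
    have hb₀ : h₁ (x (Fin.last m)) ∉ Finset.univ.image (y ∘ Fin.castSucc) := by
      rw [Finset.mem_image]
      rintro ⟨i, -, hi⟩
      have h2 : y (Fin.castSucc i) = h₁ (x (Fin.castSucc i)) := (hh₁x i).symm
      simp only [Function.comp_apply] at hi
      rw [h2] at hi
      exact (Fin.castSucc_lt_last i).ne (hx (h₁.injective hi))
    have hb₁ : y (Fin.last m) ∉ Finset.univ.image (y ∘ Fin.castSucc) := by
      rw [Finset.mem_image]
      rintro ⟨i, -, hi⟩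
      exact (Fin.castSucc_lt_last i).ne (hy hi)
    obtain ⟨h₂, hh₂, hh₂U, hh₂b⟩ := h _ (Finset.disjoint_empty_right _) hcard _ _
      (Finset.notMem_empty _) hb₀ (Finset.notMem_empty _) hb₁
    refine ⟨h₂ * h₁, H.mul_mem hh₂ hh₁, fun i => ?_⟩
    refine Fin.lastCases ?_ (fun i => ?_) i
    · rw [Perm.mul_apply]
      exact hh₂b
    · rw [Perm.mul_apply]
      have h3 : h₁ (x (Fin.castSucc i)) = y (Fin.castSucc i) := hh₁x i
      rw [h3]
      exact hh₂U _ (Finset.mem_image_of_mem _ (Finset.mem_univ i))


theorem card_ins1 (S : Finset α) (a : α) : (insert a S).card ≤ S.card + 1 :=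
  Finset.card_insert_le a S

theorem card_ins3 (S : Finset α) (a b c : α) :
    (insert a (insert b (insert c S))).card ≤ S.card + 3 := by
  have h1 := Finset.card_insert_le a (insert b (insert c S))
  have h2 := Finset.card_insert_le b (insert c S)
  have h3 := Finset.card_insert_le c S
  omega

theorem card_ins4 (S : Finset α) (a b c d : α) :
    (insert a (insert b (insert c (insert d S)))).card ≤ S.card + 4 := by
  have h1 := Finset.card_insert_le a (insert b (insert c (insert d S)))
  have h2 := card_ins3 S b c d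
  omega

/-- Jordan's theorem on normal subgroups of multiply transitive groups, relative to a pointwise
fixed set `S`. -/
theorem jordan_aux : ∀ (j : ℕ), 1 ≤ j → ∀ (S : Finset α) (G N : Subgroup (Perm α)),
    (∀ g ∈ G, ∀ s ∈ S, g s = s) → N ≤ G → (∀ g ∈ G, ∀ n ∈ N, g * n * g⁻¹ ∈ N) → N ≠ ⊥ →
    S.card + (j + 1) < Fintype.card α → E G S (j + 1) →
    E N S j ∨ (j = 2 ∧ (∀ n ∈ N, n ^ 2 = 1) ∧ ∀ n ∈ N, ∀ y, y ∉ S → n y = y → n = 1) := by
  intro j hj
  induction j, hj using Nat.le_induction with
  | base =>
    intro S G N GS hNG hnorm hN hcard hE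
    left
    have tr := trans_of_normal GS hNG hnorm hN hE
    intro U hU hc b₀ b₁ hb₀S hb₀U hb₁S hb₁U
    obtain ⟨n, hn, hnb⟩ := tr b₀ b₁ hb₀S hb₁S
    have hUe : U = ∅ := Finset.card_eq_zero.1 (by omega)
    exact ⟨n, hn, by simp [hUe], hnb⟩
  | succ j hj ih =>
    intro S G N GS hNG hnorm hN hcard hE
    have NS : ∀ n ∈ N, ∀ s ∈ S, n s = s := fun n hn => GS n (hNG hn)
    have tr := trans_of_normal GS hNG hnorm hN (hE.mono (by omega))
    obtain ⟨a, ha⟩ := exists_notMem S (by omega)
    by_cases hA : ∀ n ∈ N, n a = a → n = 1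
    · have free : ∀ n ∈ N, ∀ y, y ∉ S → n y = y → n = 1 := by
        intro n hn y hy hny
        obtain ⟨m, hm, hma⟩ := tr a y ha hy
        have h1 : (m⁻¹ * n * m) a = a := by
          rw [Perm.mul_apply, Perm.mul_apply, hma, hny, Perm.inv_eq_iff_eq, hma]
        have h2 := hA _ (N.mul_mem (N.mul_mem (N.inv_mem hm) hn) hm) h1
        have h3 : n = m * (m⁻¹ * n * m) * m⁻¹ := by group
        rw [h3, h2]
        group
      have comm : ∀ g ∈ G, ∀ n ∈ N, g a = a → g (n a) = n a → g * n = n * g := by
        intro g hg n hn hga hgna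
        have hc : g * n * g⁻¹ ∈ N := hnorm g hg n hn
        have hga' : g⁻¹ a = a := by rw [Perm.inv_eq_iff_eq, hga]
        have h1 : (n⁻¹ * (g * n * g⁻¹)) a = a := by
          simp only [Perm.mul_apply, hga', hgna]
          simp
        have h2 := hA _ (N.mul_mem (N.inv_mem hn) hc) h1
        have h3 : n = g * n * g⁻¹ := inv_mul_eq_one.1 h2
        exact mul_inv_eq_iff_eq_mul.1 h3.symm
      by_cases hj2 : j + 1 = 2
      · right
        refine ⟨hj2, ?_, free⟩
        intro n hn
        by_contra hsq
        have hna : n a ≠ a := by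
          intro h
          rw [hA n hn h, one_pow] at hsq
          exact hsq rfl
        have hne : n a ≠ n⁻¹ a := by
          intro h
          have h1 : (n * n) a = a := by
            rw [Perm.mul_apply, h]
            simp
          have h2 := hA _ (N.mul_mem hn hn) h1
          rw [pow_two] at hsq
          exact hsq h2
        have hna' : n⁻¹ a ≠ a := by
          intro h
          rw [Perm.inv_eq_iff_eq] at h
          exact hna h.symm
        have hnaS : n a ∉ S := preserve NS hn ha
        have hnaS' : n⁻¹ a ∉ S := preserve NS (N.inv_mem hn) ha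
        obtain ⟨d, hd⟩ := exists_notMem (insert a (insert (n a) (insert (n⁻¹ a) S))) (by
          have := card_ins3 S a (n a) (n⁻¹ a)
          omega)
        simp only [Finset.mem_insert, not_or] at hd
        obtain ⟨g, hg, hgU, hgb⟩ := hE {a, n a} (by
            rw [Finset.disjoint_left]
            intro x hx
            rw [Finset.mem_insert, Finset.mem_singleton] at hx
            rcases hx with rfl | rfl
            · exact ha
            · exact hnaS) (by
            have := Finset.card_le_two (a := a) (b := n a)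
            omega) (n⁻¹ a) d hnaS' (by
            rw [Finset.mem_insert, Finset.mem_singleton, not_or]
            exact ⟨hna', fun h => hne h.symm⟩) hd.2.2.2 (by
            rw [Finset.mem_insert, Finset.mem_singleton, not_or]
            exact ⟨hd.1, hd.2.1⟩)
        have hga : g a = a := hgU a (by simp)
        have hgna : g (n a) = n a := hgU (n a) (by simp)
        have hcomm := comm g hg n hn hga hgna
        have h5 : n (g (n⁻¹ a)) = a := by
          have h6 : (n * g) (n⁻¹ a) = (g * n) (n⁻¹ a) := by rw [hcomm]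
          rw [Perm.mul_apply, Perm.mul_apply] at h6
          rw [h6]
          simpa using hga
        rw [hgb] at h5
        have h7 : d = n⁻¹ a := by
          rw [← h5]
          simp
        exact hd.2.2.1 h7
      · exfalso
        obtain ⟨b, hb⟩ := exists_notMem (insert a S) (by
          have := card_ins1 S a
          omega)
        simp only [Finset.mem_insert, not_or] at hb
        obtain ⟨n, hn, hnab⟩ := tr a b ha hb.2
        obtain ⟨c, hc⟩ := exists_notMem (insert a (insert b (insert (n⁻¹ a) S))) (by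
          have := card_ins3 S a b (n⁻¹ a)
          omega)
        simp only [Finset.mem_insert, not_or] at hc
        obtain ⟨x, hx, hxac⟩ := tr a c ha hc.2.2.2
        have heS : x b ∉ S := preserve NS hx hb.2
        have hea : x b ≠ a := by
          intro h
          have h1 : (x * n) a = a := by rw [Perm.mul_apply, hnab, h]
          have h2 := hA _ (N.mul_mem hx hn) h1
          have h3 : x = n⁻¹ := eq_inv_of_mul_eq_one_left h2
          rw [h3] at hxac
          exact hc.2.2.1 hxac.symm
        have heb : x b ≠ b := by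
          intro h
          have h1 := free x hx b hb.2 h
          rw [h1] at hxac
          exact hc.1 hxac.symm
        have hec : x b ≠ c := by
          rw [← hxac]
          intro h
          exact hb.1 (x.injective h)
        obtain ⟨d, hd⟩ := exists_notMem (insert a (insert b (insert c (insert (x b) S)))) (by
          have := card_ins4 S a b c (x b)
          omega)
        simp only [Finset.mem_insert, not_or] at hd
        obtain ⟨g, hg, hgU, hgb⟩ := (hE.mono (by omega : 4 ≤ j + 1 + 1)) {a, b, c} (by
            rw [Finset.disjoint_left]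
            intro y hy
            simp only [Finset.mem_insert, Finset.mem_singleton] at hy
            rcases hy with rfl | rfl | rfl
            · exact ha
            · exact hb.2
            · exact hc.2.2.2) (by
            have := Finset.card_le_three (a := a) (b := b) (c := c)
            omega) (x b) d heS (by
            simp only [Finset.mem_insert, Finset.mem_singleton, not_or]
            exact ⟨hea, heb, hec⟩) hd.2.2.2.2 (by
            simp only [Finset.mem_insert, Finset.mem_singleton, not_or]
            exact ⟨hd.1, hd.2.1, hd.2.2.1⟩)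
        have hga : g a = a := hgU a (by simp)
        have hgb' : g b = b := hgU b (by simp)
        have hgc : g c = c := hgU c (by simp)
        have hcn := comm g hg n hn hga (by rw [hnab]; exact hgb')
        have hcx := comm g hg x hx hga (by rw [hxac]; exact hgc)
        have h6 : (g * x) b = (x * g) b := by rw [hcx]
        rw [Perm.mul_apply, Perm.mul_apply, hgb', hgb] at h6
        exact hd.2.2.2.1 h6
    · push Not at hA
      obtain ⟨t, ht, hta, ht1⟩ := hA
      have hta' : t ∈ MulAction.stabilizer (Perm α) a := hta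
      rcases ih (insert a S) (G ⊓ MulAction.stabilizer (Perm α) a)
          (N ⊓ MulAction.stabilizer (Perm α) a) (by
            intro g hg s hs
            rw [Finset.mem_insert] at hs
            rcases hs with rfl | hs
            · exact hg.2
            · exact GS g hg.1 s hs) (inf_le_inf_right _ hNG) (by
            intro g hg n hn
            exact ⟨hnorm g hg.1 n hn.1, Subgroup.mul_mem _ (Subgroup.mul_mem _ hg.2 hn.2)
              (Subgroup.inv_mem _ hg.2)⟩) (by
            intro h
            have h1 : t ∈ N ⊓ MulAction.stabilizer (Perm α) a := ⟨ht, hta'⟩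
            rw [h, Subgroup.mem_bot] at h1
            exact ht1 h1) (by
            rw [Finset.card_insert_of_notMem ha]
            omega) (hE.stab a ha) with h | ⟨hj2, hsq', hfree'⟩
      · exact Or.inl (E.of_stab NS tr a ha h)
      · exfalso
        obtain ⟨b, hb⟩ : ∃ b, t b ≠ b := by
          by_contra hcon
          push Not at hcon
          exact ht1 (Perm.ext hcon)
        have hbS : b ∉ S := fun h => hb (NS t ht b h)
        have hba : b ≠ a := by
          rintro rfl
          exact hb hta
        have hcS : t b ∉ S := preserve NS ht hbS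
        have hca : t b ≠ a := by
          intro h
          rw [← hta] at h
          exact hba (t.injective h)
        have htc : t (t b) = b := by
          have h1 := congrArg (fun p : Perm α => p b) (hsq' t ⟨ht, hta'⟩)
          simpa [pow_two] using h1
        obtain ⟨d, hd⟩ := exists_notMem (insert a (insert b (insert (t b) S))) (by
          have := card_ins3 S a b (t b)
          omega)
        simp only [Finset.mem_insert, not_or] at hd
        obtain ⟨g, hg, hgU, hgb⟩ := (hE.mono (by omega : 4 ≤ j + 1 + 1)) {b, t b} (by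
            rw [Finset.disjoint_left]
            intro y hy
            simp only [Finset.mem_insert, Finset.mem_singleton] at hy
            rcases hy with rfl | rfl
            · exact hbS
            · exact hcS) (by
            have := Finset.card_le_two (a := b) (b := t b)
            omega) a d ha (by
            simp only [Finset.mem_insert, Finset.mem_singleton, not_or]
            exact ⟨fun h => hba h.symm, fun h => hca h.symm⟩) hd.2.2.2 (by
            simp only [Finset.mem_insert, Finset.mem_singleton, not_or]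
            exact ⟨hd.2.1, hd.2.2.1⟩)
        have hgb' : g b = b := hgU b (by simp)
        have hgc : g (t b) = t b := hgU (t b) (by simp)
        have hgb'' : g⁻¹ b = b := by rw [Perm.inv_eq_iff_eq, hgb']
        have hgc'' : g⁻¹ (t b) = t b := by rw [Perm.inv_eq_iff_eq, hgc]
        have htb' : t⁻¹ (t b) = b := by simp
        have htc' : t⁻¹ b = t b := by rw [Perm.inv_eq_iff_eq, htc]
        have hu : t⁻¹ * (g * t * g⁻¹) ∈ N := N.mul_mem (N.inv_mem ht) (hnorm g hg t ht)
        have hub : (t⁻¹ * (g * t * g⁻¹)) b = b := by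
          simp only [Perm.mul_apply, hgb'', hgc, htb']
        have huc : (t⁻¹ * (g * t * g⁻¹)) (t b) = t b := by
          simp only [Perm.mul_apply, hgc'', htc, hgb', htc']
        obtain ⟨m, hm, hmb⟩ := tr b a hbS ha
        have hmb' : m⁻¹ a = b := by rw [Perm.inv_eq_iff_eq, hmb]
        have hv : m * (t⁻¹ * (g * t * g⁻¹)) * m⁻¹ ∈ N :=
          N.mul_mem (N.mul_mem hm hu) (N.inv_mem hm)
        have hva : (m * (t⁻¹ * (g * t * g⁻¹)) * m⁻¹) a = a := by
          rw [Perm.mul_apply, hmb', Perm.mul_apply, hub, hmb]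
        have hvc : (m * (t⁻¹ * (g * t * g⁻¹)) * m⁻¹) (m (t b)) = m (t b) := by
          have h0 : m⁻¹ (m (t b)) = t b := by simp
          rw [Perm.mul_apply, h0, Perm.mul_apply, huc]
        have hmc : m (t b) ∉ insert a S := by
          rw [Finset.mem_insert, not_or]
          refine ⟨?_, preserve NS hm hcS⟩
          rw [← hmb]
          exact fun h => hb (m.injective h)
        have hv1 := hfree' _ ⟨hv, hva⟩ _ hmc hvc
        have hu1 : t⁻¹ * (g * t * g⁻¹) = 1 := by
          have h3 : t⁻¹ * (g * t * g⁻¹) =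
              m⁻¹ * (m * (t⁻¹ * (g * t * g⁻¹)) * m⁻¹) * m := by group
          rw [h3, hv1]
          group
        have htt : t = g * t * g⁻¹ := inv_mul_eq_one.1 hu1
        have hgd : g⁻¹ d = a := by rw [Perm.inv_eq_iff_eq, hgb]
        have htd : t d = d := by
          conv_lhs => rw [htt]
          rw [Perm.mul_apply, Perm.mul_apply, hgd, hta, hgb]
        have hdS : d ∉ insert a S := by
          rw [Finset.mem_insert, not_or]
          exact ⟨hd.1, hd.2.2.2⟩
        exact ht1 (hfree' t ⟨ht, hta'⟩ d hdS htd)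

end Cfsg.Agent.Lib.Helper5.Jordan
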