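import Mathlib

set_option autoImplicit false

namespace Cfsg.Agent.Lib.Helper5.GL2Odd

open Matrix

variable {F : Type*} [Field F]

/-- Cayley–Hamilton for a traceless `2 × 2` matrix. -/
lemma traceless_sq (M : Matrix (Fin 2) (Fin 2) F) (h : M.trace = 0) :
    M * M = (-M.det) • (1 : Matrix (Fin 2) (Fin 2) F) := by
  rw [Matrix.trace_fin_two] at h
  have h' : M 1 1 = -M 0 0 := by linear_combination h
  ext i j
  fin_cases i <;> fin_cases j <;>
    simp [Matrix.mul_apply, Fin.sum_univ_two, Matrix.det_fin_two, h'] <;> ring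

/-- If `s` has odd order and conjugates a traceless invertible `t` to something commuting with
`t`, then it centralises `t`. -/
lemma conj_eq_of_traceless (h2 : (2 : F) ≠ 0) (s s' t : Matrix (Fin 2) (Fin 2) F)
    (hss' : s * s' = 1) (hs's : s' * s = 1) (m : ℕ) (hm : Odd m) (hsm : s ^ m = 1)
    (ht : t.trace = 0) (hdet : t.det ≠ 0)
    (hc : (s * t * s') * t = t * (s * t * s')) : s * t * s' = t := by
  obtain ⟨u, hu⟩ : ∃ u, u = s * t * s' := ⟨_, rfl⟩
  rw [← hu] at hc ⊢
  have hutr : u.trace = 0 := by
    rw [hu, Matrix.trace_mul_cycle, hs's, one_mul, ht]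
  have hudet : u.det = t.det := by
    have h1 : s.det * s'.det = 1 := by rw [← Matrix.det_mul, hss', Matrix.det_one]
    rw [hu, Matrix.det_mul, Matrix.det_mul]
    linear_combination t.det * h1
  have hu2 : u * u = t * t := by rw [traceless_sq u hutr, traceless_sq t ht, hudet]
  have hY : (u - t) * (u + t) = 0 := by
    rw [sub_mul, mul_add, mul_add, hu2, hc]; abel
  have hY' : (u + t) * (u - t) = 0 := by
    rw [add_mul, mul_sub, mul_sub, hu2, hc]; abel
  have htrY : (u - t).trace = 0 := by rw [Matrix.trace_sub, hutr, ht, sub_zero]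
  have htrY' : (u + t).trace = 0 := by rw [Matrix.trace_add, hutr, ht, add_zero]
  by_cases hd' : (u + t).det = 0
  · by_cases hd : (u - t).det = 0
    · exfalso
      have e1 := traceless_sq _ htrY
      have e2 := traceless_sq _ htrY'
      rw [hd, neg_zero, zero_smul] at e1
      rw [hd', neg_zero, zero_smul] at e2
      have e3 : ((u - t) + (u + t)) * ((u - t) + (u + t)) = 0 := by
        have : ((u - t) + (u + t)) * ((u - t) + (u + t)) = (u - t) * (u - t) + (u - t) * (u + t)
            + (u + t) * (u - t) + (u + t) * (u + t) := by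
          noncomm_ring
        rw [this, e1, e2, hY, hY']; simp
      have e4 : (u - t) + (u + t) = (2 : F) • u := by rw [two_smul]; abel
      rw [e4, Matrix.smul_mul, Matrix.mul_smul, smul_smul, hu2, traceless_sq t ht, smul_smul] at e3
      have e5 := congrFun (congrFun e3 0) 0
      simp at e5
      rcases e5 with e5 | e5
      · exact h2 e5
      · exact hdet e5
    · -- `u + t = 0`
      exfalso
      have hunit : IsUnit (u - t).det := isUnit_iff_ne_zero.mpr hd
      have e1 : u + t = 0 := by
        have := congrArg (fun X => (u - t)⁻¹ * X) hY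
        simp only [mul_zero] at this
        rwa [← mul_assoc, Matrix.nonsing_inv_mul _ hunit, one_mul] at this
      have e2 : u = -t := eq_neg_of_add_eq_zero_left e1
      have hs'm : s' ^ m = 1 := by
        have hcomm : Commute s' s := by rw [Commute, SemiconjBy, hs's, hss']
        have := hcomm.mul_pow m
        rw [hs's, one_pow, hsm, mul_one] at this
        exact this.symm
      have key : ∀ k : ℕ, s ^ k * t * s' ^ k = (-1 : F) ^ k • t := by
        intro k
        induction k with
        | zero => simp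
        | succ k ih =>
          have : s ^ (k + 1) * t * s' ^ (k + 1) = s * (s ^ k * t * s' ^ k) * s' := by
            rw [pow_succ' s, pow_succ s']; simp only [mul_assoc]
          rw [this, ih, Matrix.mul_smul, Matrix.smul_mul, ← hu, e2, pow_succ]
          simp [smul_smul]
      have e3 := key m
      rw [hsm, hs'm, one_mul, mul_one, hm.neg_one_pow] at e3
      have e4 : (2 : F) • t = 0 := by
        rw [two_smul]; nth_rewrite 1 [e3]; simp
      have e5 : t = 0 := by
        rcases smul_eq_zero.mp e4 with e | e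
        · exact absurd e h2
        · exact e
      rw [e5] at hdet; simp at hdet
  · have hunit : IsUnit (u + t).det := isUnit_iff_ne_zero.mpr hd'
    have e1 : u - t = 0 := by
      have := congrArg (fun X => X * (u + t)⁻¹) hY
      simp only [zero_mul] at this
      rwa [mul_assoc, Matrix.mul_nonsing_inv _ hunit, mul_one] at this
    exact sub_eq_zero.mp e1

/-- An element of order prime to the characteristic whose traceless part is singular is
scalar. -/
lemma scalar_of_singular (g : Matrix (Fin 2) (Fin 2) F) (c : F) (n : ℕ) (hn : (n : F) ≠ 0)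
    (hgn : g ^ n = 1) (hdet : (g - c • (1 : Matrix (Fin 2) (Fin 2) F)).det = 0)
    (htr : (g - c • (1 : Matrix (Fin 2) (Fin 2) F)).trace = 0) :
    g = c • (1 : Matrix (Fin 2) (Fin 2) F) := by
  obtain ⟨g₀, hg₀⟩ : ∃ g₀, g₀ = g - c • (1 : Matrix (Fin 2) (Fin 2) F) := ⟨_, rfl⟩
  rw [← hg₀] at hdet htr
  have hsq : g₀ * g₀ = 0 := by rw [traceless_sq g₀ htr, hdet]; simp
  have hg : g = c • (1 : Matrix (Fin 2) (Fin 2) F) + g₀ := by rw [hg₀]; abel
  have key : ∀ k : ℕ, g ^ (k + 1) = (c ^ (k + 1)) • (1 : Matrix (Fin 2) (Fin 2) F)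
      + (((k + 1 : ℕ) : F) * c ^ k) • g₀ := by
    intro k
    induction k with
    | zero => simp [hg]
    | succ k ih =>
      rw [pow_succ, ih, hg]
      rw [add_mul, mul_add, mul_add]
      simp only [Matrix.smul_mul, Matrix.mul_smul, one_mul, mul_one, hsq, smul_zero, add_zero,
        smul_smul]
      rw [add_assoc, ← add_smul]
      congr 2
      · ring
      · push_cast; ring
  have hn0 : n ≠ 0 := by rintro rfl; simp at hn
  obtain ⟨k, rfl⟩ := Nat.exists_eq_succ_of_ne_zero hn0
  have e1 := key k
  rw [Nat.succ_eq_add_one] at hgn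
  rw [hgn] at e1
  by_contra hne
  have hg₀ne : g₀ ≠ 0 := by
    intro h0; apply hne; rw [hg, h0, add_zero]
  -- multiply by `g₀`
  have e2 : g₀ = (c ^ (k + 1)) • g₀ := by
    have := congrArg (fun X => X * g₀) e1
    simp only [one_mul, add_mul, Matrix.smul_mul, hsq, smul_zero, add_zero] at this
    exact this
  have e3 : c ^ (k + 1) = 1 := by
    have : ((1 : F) - c ^ (k + 1)) • g₀ = 0 := by
      rw [sub_smul, one_smul, ← e2, sub_self]
    rcases smul_eq_zero.mp this with e | e
    · exact (sub_eq_zero.mp e).symm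
    · exact absurd e hg₀ne
  rw [e3, one_smul] at e1
  have e4 : (((k + 1 : ℕ) : F) * c ^ k) • g₀ = 0 := by
    have := e1
    rwa [left_eq_add] at this
  rcases smul_eq_zero.mp e4 with e | e
  · rcases mul_eq_zero.mp e with e | e
    · exact hn e
    · rw [pow_succ, e, zero_mul] at e3
      exact zero_ne_one e3
  · exact hg₀ne e

/-- Key commutation lemma: in characteristic `≠ 2`, if `h` has odd order, `g` has order prime to
the characteristic and `h g h⁻¹` commutes with `g`, then `h` commutes with `g`. -/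
lemma conj_eq_of_commute (h2 : (2 : F) ≠ 0) (s s' g : Matrix (Fin 2) (Fin 2) F)
    (hss' : s * s' = 1) (hs's : s' * s = 1) (m : ℕ) (hm : Odd m) (hsm : s ^ m = 1)
    (n : ℕ) (hn : (n : F) ≠ 0) (hgn : g ^ n = 1)
    (hc : (s * g * s') * g = g * (s * g * s')) : s * g * s' = g := by
  obtain ⟨c, hc0⟩ : ∃ c : F, c = g.trace / 2 := ⟨_, rfl⟩
  have htr : (g - c • (1 : Matrix (Fin 2) (Fin 2) F)).trace = 0 := by
    rw [Matrix.trace_sub, Matrix.trace_smul, Matrix.trace_one, hc0]
    simp only [Fintype.card_fin, smul_eq_mul]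
    push_cast
    field_simp
    ring
  by_cases hdet : (g - c • (1 : Matrix (Fin 2) (Fin 2) F)).det = 0
  · have hg := scalar_of_singular g c n hn hgn hdet htr
    rw [hg, Matrix.mul_smul, Matrix.smul_mul, mul_one, hss']
  · have e : s * (g - c • (1 : Matrix (Fin 2) (Fin 2) F)) * s' = s * g * s' - c • 1 := by
      rw [mul_sub, sub_mul, Matrix.mul_smul, Matrix.smul_mul, mul_one, hss']
    have comm_shift : ∀ X Y : Matrix (Fin 2) (Fin 2) F, X * Y = Y * X →
        (X - c • (1 : Matrix (Fin 2) (Fin 2) F)) * (Y - c • (1 : Matrix (Fin 2) (Fin 2) F))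
          = (Y - c • (1 : Matrix (Fin 2) (Fin 2) F)) * (X - c • (1 : Matrix (Fin 2) (Fin 2) F)) := by
      intro X Y hXY
      simp only [sub_mul, mul_sub, Matrix.smul_mul, Matrix.mul_smul, one_mul, mul_one, hXY]
      abel
    have := conj_eq_of_traceless h2 s s' (g - c • (1 : Matrix (Fin 2) (Fin 2) F)) hss' hs's m hm
      hsm htr hdet (by rw [e]; exact comm_shift _ _ hc)
    rw [e] at this
    exact sub_left_injective this

/-- Group version in `GL₂`. -/
lemma commute_of_conj_commute (h2 : (2 : F) ≠ 0) (g h : GL (Fin 2) F) (m n : ℕ) (hm : Odd m)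
    (hhm : h ^ m = 1) (hgn : g ^ n = 1) (hn : (n : F) ≠ 0)
    (hc : Commute (h * g * h⁻¹) g) : Commute h g := by
  have key := conj_eq_of_commute h2 (h : Matrix (Fin 2) (Fin 2) F)
    ((h⁻¹ : GL (Fin 2) F) : Matrix (Fin 2) (Fin 2) F) (g : Matrix (Fin 2) (Fin 2) F)
    (by rw [← Units.val_mul, mul_inv_cancel, Units.val_one])
    (by rw [← Units.val_mul, inv_mul_cancel, Units.val_one]) m hm
    (by rw [← Units.val_pow_eq_pow_val, hhm, Units.val_one]) n hn
    (by rw [← Units.val_pow_eq_pow_val, hgn, Units.val_one])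
    (by
      have := congrArg (fun x : GL (Fin 2) F => (x : Matrix (Fin 2) (Fin 2) F)) hc.eq
      simpa only [Units.val_mul] using this)
  have key' : h * g * h⁻¹ = g := by
    apply Units.ext
    simpa only [Units.val_mul] using key
  rw [Commute, SemiconjBy]
  calc h * g = h * g * h⁻¹ * h := by group
    _ = g * h := by rw [key']


/-- General Cayley–Hamilton for `2 × 2`. -/
lemma sq_eq (M : Matrix (Fin 2) (Fin 2) F) :
    M * M = M.trace • M - M.det • (1 : Matrix (Fin 2) (Fin 2) F) := by
  ext i j
  fin_cases i <;> fin_cases j <;>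
    simp [Matrix.mul_apply, Fin.sum_univ_two, Matrix.det_fin_two, Matrix.trace_fin_two] <;> ring

/-- A nilpotent `2 × 2` matrix squares to zero. -/
lemma sq_zero_of_pow (M : Matrix (Fin 2) (Fin 2) F) (k : ℕ) (h : M ^ k = 0) : M * M = 0 := by
  have hdet : M.det = 0 := by
    have := congrArg Matrix.det h
    rw [Matrix.det_pow, Matrix.det_zero] at this
    exact eq_zero_of_pow_eq_zero this
  have hsq : M * M = M.trace • M := by rw [sq_eq, hdet, zero_smul, sub_zero]
  have key : ∀ j : ℕ, M ^ (j + 1) = M.trace ^ j • M := by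
    intro j
    induction j with
    | zero => simp
    | succ j ih => rw [pow_succ, ih, Matrix.smul_mul, hsq, smul_smul, pow_succ]
  rcases Nat.eq_zero_or_pos k with rfl | hk
  · rw [pow_zero] at h
    have := congrFun (congrFun h 0) 0
    simp at this
  · obtain ⟨j, rfl⟩ := Nat.exists_eq_succ_of_ne_zero hk.ne'
    rw [Nat.succ_eq_add_one, key j] at h
    rcases smul_eq_zero.mp h with e | e
    · rcases Nat.eq_zero_or_pos j with rfl | hj
      · simp at e
      · rw [hsq, pow_eq_zero_iff hj.ne' |>.mp e, zero_smul]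
    · rw [e, mul_zero]

/-- The kernel of a square-zero nonzero `2 × 2` matrix is spanned by any nonzero image vector. -/
lemma ker_le_span (N : Matrix (Fin 2) (Fin 2) F) (v₀ : Fin 2 → F) (hN2 : N * N = 0)
    (hw : N.mulVec v₀ ≠ 0) (u : Fin 2 → F) (hu : N.mulVec u = 0) :
    u ∈ Submodule.span F {N.mulVec v₀} := by
  obtain ⟨w, hwdef⟩ : ∃ w, w = N.mulVec v₀ := ⟨_, rfl⟩
  rw [← hwdef] at hw ⊢
  have hNw : N.mulVec w = 0 := by rw [hwdef, Matrix.mulVec_mulVec, hN2, Matrix.zero_mulVec]
  have hDt : v₀ 0 * w 1 - v₀ 1 * w 0 ≠ 0 := by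
    intro hD
    have e1 : w 1 • v₀ = v₀ 1 • w := by
      funext i; fin_cases i
      · simp only [Pi.smul_apply, smul_eq_mul, Fin.zero_eta]; linear_combination hD
      · simp only [Pi.smul_apply, smul_eq_mul, Fin.mk_one]; ring
    have e2 : w 0 • v₀ = v₀ 0 • w := by
      funext i; fin_cases i
      · simp only [Pi.smul_apply, smul_eq_mul, Fin.zero_eta]; ring
      · simp only [Pi.smul_apply, smul_eq_mul, Fin.mk_one]; linear_combination -hD
    have e3 : w 1 • w = 0 := by
      have := congrArg N.mulVec e1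
      rwa [Matrix.mulVec_smul, Matrix.mulVec_smul, hNw, smul_zero, ← hwdef] at this
    have e4 : w 0 • w = 0 := by
      have := congrArg N.mulVec e2
      rwa [Matrix.mulVec_smul, Matrix.mulVec_smul, hNw, smul_zero, ← hwdef] at this
    apply hw
    funext i; fin_cases i
    · rcases smul_eq_zero.mp e4 with e | e
      · simpa using e
      · rw [e]
    · rcases smul_eq_zero.mp e3 with e | e
      · simpa using e
      · rw [e]
  have hdec : (v₀ 0 * w 1 - v₀ 1 * w 0) • u
      = (u 0 * w 1 - u 1 * w 0) • v₀ + (v₀ 0 * u 1 - v₀ 1 * u 0) • w := by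
    funext i; fin_cases i
    · simp only [Pi.smul_apply, Pi.add_apply, smul_eq_mul, Fin.zero_eta]; ring
    · simp only [Pi.smul_apply, Pi.add_apply, smul_eq_mul, Fin.mk_one]; ring
  have e5 : (u 0 * w 1 - u 1 * w 0) • w = 0 := by
    have := congrArg N.mulVec hdec
    rw [Matrix.mulVec_smul, hu, smul_zero, Matrix.mulVec_add, Matrix.mulVec_smul,
      Matrix.mulVec_smul, hNw, smul_zero, add_zero, ← hwdef] at this
    exact this.symm
  have e6 : u 0 * w 1 - u 1 * w 0 = 0 := by
    rcases smul_eq_zero.mp e5 with e | e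
    · exact e
    · exact absurd e hw
  rw [e6, zero_smul, zero_add] at hdec
  rw [Submodule.mem_span_singleton]
  refine ⟨(v₀ 0 * u 1 - v₀ 1 * u 0) / (v₀ 0 * w 1 - v₀ 1 * w 0), ?_⟩
  rw [div_eq_inv_mul, ← smul_smul, ← hdec, smul_smul, inv_mul_cancel₀ hDt, one_smul]

/-- In a finite `r`-group, if every element all of whose conjugates commute with it is central,
then the group is commutative. -/
lemma comm_of_pgroup {R : Type*} [Group R] [Finite R] {r : ℕ} [Fact r.Prime] (hR : IsPGroup r R)
    (hY : ∀ t : R, (∀ s : R, Commute (s * t * s⁻¹) t) → ∀ s : R, Commute s t) :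
    ∀ x y : R, Commute x y := by
  by_contra hne
  push_neg at hne
  obtain ⟨x, y, hxy⟩ := hne
  have hy : y ∉ Subgroup.center R := by
    intro h
    exact hxy (Subgroup.mem_center_iff.mp h x)
  haveI : Nontrivial (R ⧸ Subgroup.center R) :=
    nontrivial_of_ne (QuotientGroup.mk y) 1 (by rwa [Ne, QuotientGroup.eq_one_iff])
  haveI := (hR.to_quotient (Subgroup.center R)).center_nontrivial
  obtain ⟨⟨q, hq⟩, hq1⟩ := exists_ne (1 : Subgroup.center (R ⧸ Subgroup.center R))
  obtain ⟨t, rfl⟩ := QuotientGroup.mk_surjective q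
  have ht : t ∉ Subgroup.center R := by
    intro h
    apply hq1
    apply Subtype.ext
    exact (QuotientGroup.eq_one_iff t).mpr h
  apply ht
  have hcomm : ∀ s : R, s * t * s⁻¹ * t⁻¹ ∈ Subgroup.center R := by
    intro s
    rw [← QuotientGroup.eq_one_iff]
    have := Subgroup.mem_center_iff.mp hq (QuotientGroup.mk s)
    simp only [QuotientGroup.mk_mul, QuotientGroup.mk_inv]
    rw [this]; group
  have hc : ∀ s : R, Commute (s * t * s⁻¹) t := by
    intro s
    have h1 := Subgroup.mem_center_iff.mp (hcomm s) t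
    rw [Commute, SemiconjBy]
    calc s * t * s⁻¹ * t = (s * t * s⁻¹ * t⁻¹) * t * t := by group
      _ = t * (s * t * s⁻¹ * t⁻¹) * t := by rw [h1]
      _ = t * (s * t * s⁻¹) := by group
  rw [Subgroup.mem_center_iff]
  intro s
  exact (hY t hc s).eq

end Cfsg.Agent.Lib.Helper5.GL2Odd
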