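import Mathlib

set_option autoImplicit false

namespace Cfsg.Agent.Lib.Helper5.NormPair

open Finset

variable {F : Type*} [Field F]

/-- the character sum over `U` -/
noncomputable def SS (ψ : AddChar F ℂ) (U : Finset F) (c : F) : ℂ := ∑ a ∈ U, ψ (c * a)

theorem conj_psi [Fintype F] (ψ : AddChar F ℂ) (x : F) : (starRingEnd ℂ) (ψ x) = ψ (-x) := by
  have hR : 0 < ringChar F := Nat.pos_of_ne_zero (CharP.ringChar_ne_zero_of_finite F)
  rw [AddChar.starComp_apply hR, AddChar.inv_apply]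

theorem norm_psi [Fintype F] (ψ : AddChar F ℂ) (x : F) : ‖ψ x‖ = 1 := by
  have hR : 0 < ringChar F := Nat.pos_of_ne_zero (CharP.ringChar_ne_zero_of_finite F)
  exact Complex.norm_eq_one_of_mem_rootsOfUnity (ψ.val_mem_rootsOfUnity x hR)

theorem SS_zero (ψ : AddChar F ℂ) (U : Finset F) : SS ψ U 0 = (U.card : ℂ) := by
  unfold SS
  simp

theorem SS_mul (ψ : AddChar F ℂ) (U : Finset F)
    (hmul : ∀ a ∈ U, ∀ b ∈ U, a * b ∈ U) (hinv : ∀ a ∈ U, a⁻¹ ∈ U) (h0 : (0 : F) ∉ U)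
    (c : F) {v : F} (hv : v ∈ U) : SS ψ U (c * v) = SS ψ U c := by
  have hv0 : v ≠ 0 := fun h => h0 (h ▸ hv)
  unfold SS
  apply Finset.sum_nbij' (fun a => v * a) (fun a => v⁻¹ * a)
  · intro a ha; exact hmul v hv a ha
  · intro a ha; exact hmul _ (hinv v hv) a ha
  · intro a _; simp [hv0]
  · intro a _; simp [hv0]
  · intro a _; rw [mul_assoc]

variable [Fintype F]

theorem conj_SS (ψ : AddChar F ℂ) (U : Finset F) (c : F) :
    (starRingEnd ℂ) (SS ψ U c) = ∑ b ∈ U, ψ (-(c * b)) := by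
  unfold SS
  rw [map_sum]
  exact Finset.sum_congr rfl (fun b _ => conj_psi ψ _)

variable [DecidableEq F]

theorem sum_shift (ψ : AddChar F ℂ) (hψ : ψ.IsPrimitive) (d : F) :
    ∑ c : F, ψ (c * d) = if d = 0 then (Fintype.card F : ℂ) else 0 := by
  rw [AddChar.sum_mulShift d hψ]
  split_ifs <;> simp

/-- counting solutions of `a + b = c₀` -/
theorem count_eq (ψ : AddChar F ℂ) (hψ : ψ.IsPrimitive) (U : Finset F) (c₀ : F) :
    ∑ c : F, SS ψ U c ^ 2 * ψ (-(c * c₀)) =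
      (Fintype.card F : ℂ) * ((U.filter (fun a => c₀ - a ∈ U)).card : ℂ) := by
  have h1 : ∀ c : F, SS ψ U c ^ 2 * ψ (-(c * c₀)) =
      ∑ a ∈ U, ∑ b ∈ U, ψ (c * (a + b - c₀)) := by
    intro c
    unfold SS
    rw [sq, Finset.sum_mul_sum, Finset.sum_mul]
    apply Finset.sum_congr rfl; intro a _
    rw [Finset.sum_mul]
    apply Finset.sum_congr rfl; intro b _
    rw [← AddChar.map_add_eq_mul, ← AddChar.map_add_eq_mul]
    congr 1; ring
  simp_rw [h1]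
  rw [Finset.sum_comm]
  have h2 : ∀ a ∈ U, ∑ c : F, ∑ b ∈ U, ψ (c * (a + b - c₀)) =
      (Fintype.card F : ℂ) * (if c₀ - a ∈ U then 1 else 0) := by
    intro a _
    rw [Finset.sum_comm]
    simp_rw [sum_shift ψ hψ]
    have h3 : ∀ b : F, (if a + b - c₀ = 0 then (Fintype.card F : ℂ) else 0) =
        if c₀ - a = b then (Fintype.card F : ℂ) else 0 := by
      intro b
      have e : a + b - c₀ = 0 ↔ c₀ - a = b := by
        constructor
        · intro h; linear_combination -h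
        · intro h; linear_combination -h
      simp only [e]
    simp_rw [h3]
    rw [Finset.sum_ite_eq]
    split_ifs <;> simp
  rw [Finset.sum_congr rfl h2, ← Finset.mul_sum, Finset.sum_boole]

/-- Parseval -/
theorem parseval (ψ : AddChar F ℂ) (hψ : ψ.IsPrimitive) (U : Finset F) :
    ∑ c : F, SS ψ U c * (starRingEnd ℂ) (SS ψ U c) = (Fintype.card F : ℂ) * (U.card : ℂ) := by
  have h1 : ∀ c : F, SS ψ U c * (starRingEnd ℂ) (SS ψ U c) =
      ∑ a ∈ U, ∑ b ∈ U, ψ (c * (a - b)) := by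
    intro c
    rw [conj_SS]
    unfold SS
    rw [Finset.sum_mul_sum]
    apply Finset.sum_congr rfl; intro a _
    apply Finset.sum_congr rfl; intro b _
    rw [← AddChar.map_add_eq_mul]
    congr 1; ring
  simp_rw [h1]
  rw [Finset.sum_comm]
  have h2 : ∀ a ∈ U, ∑ c : F, ∑ b ∈ U, ψ (c * (a - b)) = (Fintype.card F : ℂ) := by
    intro a ha
    rw [Finset.sum_comm]
    simp_rw [sum_shift ψ hψ]
    have h3 : ∀ b : F, (if a - b = 0 then (Fintype.card F : ℂ) else 0) =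
        if a = b then (Fintype.card F : ℂ) else 0 := by
      intro b
      have e : a - b = 0 ↔ a = b := sub_eq_zero
      simp only [e]
    simp_rw [h3]
    rw [Finset.sum_ite_eq, if_pos ha]
  rw [Finset.sum_congr rfl h2, Finset.sum_const, nsmul_eq_mul, mul_comm]

theorem parseval_real (ψ : AddChar F ℂ) (hψ : ψ.IsPrimitive) (U : Finset F) :
    ∑ c : F, ‖SS ψ U c‖ ^ 2 = (Fintype.card F : ℝ) * (U.card : ℝ) := by
  have h := parseval ψ hψ U
  have h1 : ∀ c : F, SS ψ U c * (starRingEnd ℂ) (SS ψ U c) = ((‖SS ψ U c‖ ^ 2 : ℝ) : ℂ) := by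
    intro c
    rw [Complex.mul_conj, Complex.normSq_eq_norm_sq]
  simp_rw [h1] at h
  apply Complex.ofReal_injective
  push_cast
  push_cast at h
  exact h

/-- for `c ≠ 0` the character sum is small -/
theorem SS_bound (ψ : AddChar F ℂ) (hψ : ψ.IsPrimitive) (U : Finset F)
    (hmul : ∀ a ∈ U, ∀ b ∈ U, a * b ∈ U) (hinv : ∀ a ∈ U, a⁻¹ ∈ U) (h0 : (0 : F) ∉ U)
    (h1 : (1 : F) ∈ U) {c : F} (hc : c ≠ 0) :
    ‖SS ψ U c‖ ^ 2 ≤ (Fintype.card F : ℝ) - (U.card : ℝ) := by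
  have hpar := parseval_real ψ hψ U
  have hsplit := Finset.add_sum_erase (univ : Finset F) (fun d => ‖SS ψ U d‖ ^ 2)
    (Finset.mem_univ (0 : F))
  simp only [SS_zero, Complex.norm_natCast] at hsplit
  have himg : ∑ d ∈ U.image (fun v => c * v), ‖SS ψ U d‖ ^ 2 =
      (U.card : ℝ) * ‖SS ψ U c‖ ^ 2 := by
    rw [Finset.sum_image (fun x _ y _ h => mul_left_cancel₀ hc h)]
    rw [Finset.sum_congr rfl (fun v hv => by rw [SS_mul ψ U hmul hinv h0 c hv])]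
    rw [Finset.sum_const, nsmul_eq_mul]
  have hsub : U.image (fun v => c * v) ⊆ (univ : Finset F).erase 0 := by
    intro d hd
    obtain ⟨v, hv, rfl⟩ := Finset.mem_image.mp hd
    exact Finset.mem_erase.mpr ⟨mul_ne_zero hc (fun h => h0 (h ▸ hv)), Finset.mem_univ _⟩
  have hle := Finset.sum_le_sum_of_subset_of_nonneg hsub (f := fun d => ‖SS ψ U d‖ ^ 2)
    (fun d _ _ => sq_nonneg _)
  rw [himg] at hle
  have hUpos : (0 : ℝ) < U.card := by exact_mod_cast Finset.card_pos.mpr ⟨1, h1⟩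
  have h2 : (U.card : ℝ) * ‖SS ψ U c‖ ^ 2 ≤
      (U.card : ℝ) * ((Fintype.card F : ℝ) - (U.card : ℝ)) := by
    have e : (U.card : ℝ) * ((Fintype.card F : ℝ) - (U.card : ℝ)) =
        (Fintype.card F : ℝ) * (U.card : ℝ) - (U.card : ℝ) ^ 2 := by ring
    rw [e]; linarith
  exact le_of_mul_le_mul_left h2 hUpos

theorem twist (ψ : AddChar F ℂ) (U : Finset F)
    (hmul : ∀ a ∈ U, ∀ b ∈ U, a * b ∈ U) (hinv : ∀ a ∈ U, a⁻¹ ∈ U) (h0 : (0 : F) ∉ U)
    (c₀ : F) :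
    (U.card : ℂ) * ∑ c ∈ (univ : Finset F).erase 0, SS ψ U c ^ 2 * ψ (-(c * c₀)) =
      ∑ c ∈ (univ : Finset F).erase 0, SS ψ U c ^ 2 * SS ψ U (-(c * c₀)) := by
  have h1 : ∀ c : F, SS ψ U c ^ 2 * SS ψ U (-(c * c₀)) =
      ∑ v ∈ U, SS ψ U c ^ 2 * ψ (-(c * c₀) * v) := fun c => by
    rw [← Finset.mul_sum]; rfl
  simp_rw [h1]
  rw [Finset.sum_comm]
  have h2 : ∀ v ∈ U, ∑ c ∈ (univ : Finset F).erase 0, SS ψ U c ^ 2 * ψ (-(c * c₀) * v) =
      ∑ c ∈ (univ : Finset F).erase 0, SS ψ U c ^ 2 * ψ (-(c * c₀)) := by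
    intro v hv
    have hv0 : v ≠ 0 := fun h => h0 (h ▸ hv)
    apply Finset.sum_nbij' (fun c => c * v) (fun c => c * v⁻¹)
    · intro c hc
      exact Finset.mem_erase.mpr ⟨mul_ne_zero (Finset.mem_erase.mp hc).1 hv0, Finset.mem_univ _⟩
    · intro c hc
      exact Finset.mem_erase.mpr
        ⟨mul_ne_zero (Finset.mem_erase.mp hc).1 (inv_ne_zero hv0), Finset.mem_univ _⟩
    · intro c _; simp [hv0]
    · intro c _; simp [hv0]
    · intro c _
      rw [SS_mul ψ U hmul hinv h0 c hv]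
      congr 2; ring
  rw [Finset.sum_congr rfl h2, Finset.sum_const, nsmul_eq_mul]

/-- the main estimate on the number of representations `c₀ = a + b` with `a, b ∈ U` -/
theorem main_bound (ψ : AddChar F ℂ) (hψ : ψ.IsPrimitive) (U : Finset F)
    (hmul : ∀ a ∈ U, ∀ b ∈ U, a * b ∈ U) (hinv : ∀ a ∈ U, a⁻¹ ∈ U) (h0 : (0 : F) ∉ U)
    (h1 : (1 : F) ∈ U) (c₀ : F) (hc₀ : c₀ ≠ 0) :
    ((Fintype.card F : ℝ) * ((U.filter (fun a => c₀ - a ∈ U)).card : ℝ) - (U.card : ℝ) ^ 2) ^ 2 ≤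
      ((Fintype.card F : ℝ) - (U.card : ℝ)) ^ 3 := by
  obtain ⟨T, hT⟩ : ∃ T : ℂ,
    T = ∑ c ∈ (univ : Finset F).erase 0, SS ψ U c ^ 2 * ψ (-(c * c₀)) := ⟨_, rfl⟩
  obtain ⟨B, hB⟩ : ∃ B : ℝ, B = (Fintype.card F : ℝ) - (U.card : ℝ) := ⟨_, rfl⟩
  obtain ⟨n, hn⟩ : ∃ n : ℕ, n = (U.filter (fun a => c₀ - a ∈ U)).card := ⟨_, rfl⟩
  rw [← hB, ← hn]
  have hcount := count_eq ψ hψ U c₀
  rw [← Finset.add_sum_erase _ _ (Finset.mem_univ (0 : F)), ← hT, ← hn, SS_zero] at hcount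
  simp only [zero_mul, neg_zero, AddChar.map_zero_eq_one, mul_one] at hcount
  have hTeq : T = (((Fintype.card F : ℝ) * (n : ℝ) - (U.card : ℝ) ^ 2 : ℝ) : ℂ) := by
    push_cast; linear_combination hcount
  have htw := twist ψ U hmul hinv h0 c₀
  rw [← hT] at htw
  have hbd : ∀ d : F, d ≠ 0 → ‖SS ψ U d‖ ^ 2 ≤ B := fun d hd => by
    rw [hB]; exact SS_bound ψ hψ U hmul hinv h0 h1 hd
  have hB0 : 0 ≤ B := (sq_nonneg _).trans (hbd 1 one_ne_zero)
  have hbd' : ∀ d : F, d ≠ 0 → ‖SS ψ U d‖ ≤ Real.sqrt B := fun d hd => by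
    calc ‖SS ψ U d‖ = Real.sqrt (‖SS ψ U d‖ ^ 2) := (Real.sqrt_sq (norm_nonneg _)).symm
      _ ≤ Real.sqrt B := Real.sqrt_le_sqrt (hbd d hd)
  have hsum : ∑ d ∈ (univ : Finset F).erase 0, ‖SS ψ U d‖ ^ 2 = (U.card : ℝ) * B := by
    have hpar := parseval_real ψ hψ U
    have hsplit := Finset.add_sum_erase (univ : Finset F) (fun d => ‖SS ψ U d‖ ^ 2)
      (Finset.mem_univ (0 : F))
    simp only [SS_zero, Complex.norm_natCast] at hsplit
    have e : (U.card : ℝ) * B = (Fintype.card F : ℝ) * (U.card : ℝ) - (U.card : ℝ) ^ 2 := by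
      rw [hB]; ring
    rw [e]; linarith
  have hnorm : ‖(U.card : ℂ) * T‖ ≤ (U.card : ℝ) * B * Real.sqrt B := by
    rw [htw]
    calc ‖∑ c ∈ (univ : Finset F).erase 0, SS ψ U c ^ 2 * SS ψ U (-(c * c₀))‖
        ≤ ∑ c ∈ (univ : Finset F).erase 0, ‖SS ψ U c ^ 2 * SS ψ U (-(c * c₀))‖ :=
          norm_sum_le _ _
      _ ≤ ∑ c ∈ (univ : Finset F).erase 0, ‖SS ψ U c‖ ^ 2 * Real.sqrt B := by
          apply Finset.sum_le_sum
          intro c hc
          rw [norm_mul, norm_pow]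
          have hc0 := (Finset.mem_erase.mp hc).1
          exact mul_le_mul_of_nonneg_left
            (hbd' _ (neg_ne_zero.mpr (mul_ne_zero hc0 hc₀))) (sq_nonneg _)
      _ = (U.card : ℝ) * B * Real.sqrt B := by rw [← Finset.sum_mul, hsum]
  rw [norm_mul, Complex.norm_natCast, hTeq, Complex.norm_real, Real.norm_eq_abs] at hnorm
  have hUpos : (0 : ℝ) < U.card := by exact_mod_cast Finset.card_pos.mpr ⟨1, h1⟩
  have habs : |(Fintype.card F : ℝ) * (n : ℝ) - (U.card : ℝ) ^ 2| ≤ B * Real.sqrt B := by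
    have h3 : (U.card : ℝ) * |(Fintype.card F : ℝ) * (n : ℝ) - (U.card : ℝ) ^ 2| ≤
        (U.card : ℝ) * (B * Real.sqrt B) := by rw [← mul_assoc]; exact hnorm
    exact le_of_mul_le_mul_left h3 hUpos
  have hsq := pow_le_pow_left₀ (abs_nonneg _) habs 2
  rw [sq_abs, mul_pow, Real.sq_sqrt hB0] at hsq
  calc ((Fintype.card F : ℝ) * (n : ℝ) - (U.card : ℝ) ^ 2) ^ 2 ≤ B ^ 2 * B := hsq
    _ = B ^ 3 := by ring

end Cfsg.Agent.Lib.Helper5.NormPair
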