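import Mathlib
import Cfsg.Prelude.Def_ClassicalGeometry

set_option autoImplicit false

namespace Cfsg.Agent.Lib.Helper5.Parab

open Matrix

variable {F : Type*} [Field F]

/-- The equivalence `Fin k ⊕ Fin (n - k) ≃ Fin n`. -/
def eqv (n k : ℕ) (hk : k ≤ n) : Fin k ⊕ Fin (n - k) ≃ Fin n :=
  finSumFinEquiv.trans (finCongr (by omega))

theorem eqv_inl (n k : ℕ) (hk : k ≤ n) (j : Fin k) :
    ((eqv n k hk (Sum.inl j) : Fin n) : ℕ) = j := by
  simp [eqv]

theorem eqv_inr (n k : ℕ) (hk : k ≤ n) (i : Fin (n - k)) :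
    ((eqv n k hk (Sum.inr i) : Fin n) : ℕ) = k + i := by
  simp [eqv]

/-- Block criterion for membership in the stabiliser of a coordinate subspace. -/
theorem mem_stab_iff_blocks {ι κ μ : Type} [Fintype ι] [DecidableEq ι] [Fintype κ] [DecidableEq κ]
    [Fintype μ] [DecidableEq μ] (e : κ ⊕ μ ≃ ι) (g : GL ι F) :
    g ∈ Cfsg.stabilizing (Cfsg.glToMat ι F) {v : ι → F | ∀ i : μ, v (e (Sum.inr i)) = 0} ↔
      ∀ (i : μ) (j : κ), (g : Matrix ι ι F) (e (Sum.inr i)) (e (Sum.inl j)) = 0 := by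
  constructor
  · intro hg i j
    have h1 := (hg (Pi.single (e (Sum.inl j)) 1)).1 (by
      intro i'
      simp)
    have h2 := h1 i
    simpa [Matrix.mulVec_single_one] using h2
  · intro hC v
    have hsum : ∀ i : μ, ((g : Matrix ι ι F) *ᵥ v) (e (Sum.inr i)) =
        ((Matrix.of fun a b : μ => (g : Matrix ι ι F) (e (Sum.inr a)) (e (Sum.inr b))) *ᵥ
          (fun b : μ => v (e (Sum.inr b)))) i := by
      intro i
      simp only [Matrix.mulVec, dotProduct, Matrix.of_apply]
      rw [← Equiv.sum_comp e, Fintype.sum_sum_type]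
      simp [hC]
    have hdet : (Matrix.of fun a b : μ => (g : Matrix ι ι F) (e (Sum.inr a)) (e (Sum.inr b))).det
        ≠ 0 := by
      have h0 : ((g : Matrix ι ι F).submatrix e e) =
          Matrix.fromBlocks ((g : Matrix ι ι F).submatrix e e).toBlocks₁₁
            ((g : Matrix ι ι F).submatrix e e).toBlocks₁₂ 0
            ((g : Matrix ι ι F).submatrix e e).toBlocks₂₂ := by
        conv_lhs => rw [← Matrix.fromBlocks_toBlocks ((g : Matrix ι ι F).submatrix e e)]
        congr 1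
        ext i j
        simp [Matrix.toBlocks₂₁, hC]
      have h1 : ((g : Matrix ι ι F).submatrix e e).det ≠ 0 := by
        rw [Matrix.det_submatrix_equiv_self]
        exact (Matrix.isUnits_det_units g).ne_zero
      rw [h0, Matrix.det_fromBlocks_zero₂₁] at h1
      exact right_ne_zero_of_mul h1
    show v ∈ {v : ι → F | ∀ i : μ, v (e (Sum.inr i)) = 0} ↔
      (g : Matrix ι ι F) *ᵥ v ∈ {v : ι → F | ∀ i : μ, v (e (Sum.inr i)) = 0}
    simp only [Set.mem_ofPred_eq]
    constructor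
    · intro hv i
      rw [hsum]
      have : (fun b : μ => v (e (Sum.inr b))) = 0 := funext hv
      rw [this, Matrix.mulVec_zero]
      rfl
    · intro hv
      have : (Matrix.of fun a b : μ => (g : Matrix ι ι F) (e (Sum.inr a)) (e (Sum.inr b))) *ᵥ
          (fun b : μ => v (e (Sum.inr b))) = 0 := by
        funext i
        rw [← hsum]
        exact hv i
      have h2 := Matrix.eq_zero_of_mulVec_eq_zero hdet this
      intro i
      exact congrFun h2 i

/-- The parametrisation of the block upper triangular group. -/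
noncomputable def blockMap {ι κ μ : Type} [Fintype ι] [DecidableEq ι] [Fintype κ] [DecidableEq κ]
    [Fintype μ] [DecidableEq μ] (e : κ ⊕ μ ≃ ι)
    (x : (Matrix κ μ F × GL κ F) × GL μ F) : GL ι F :=
  Matrix.GeneralLinearGroup.mkOfDetNeZero
    ((Matrix.fromBlocks (x.1.2 : Matrix κ κ F) x.1.1 0 (x.2 : Matrix μ μ F)).submatrix e.symm e.symm)
    (by
      rw [Matrix.det_submatrix_equiv_self, Matrix.det_fromBlocks_zero₂₁]
      exact mul_ne_zero (Matrix.isUnits_det_units x.1.2).ne_zero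
        (Matrix.isUnits_det_units x.2).ne_zero)

theorem blockMap_coe {ι κ μ : Type} [Fintype ι] [DecidableEq ι] [Fintype κ] [DecidableEq κ]
    [Fintype μ] [DecidableEq μ] (e : κ ⊕ μ ≃ ι)
    (x : (Matrix κ μ F × GL κ F) × GL μ F) :
    ((blockMap e x : GL ι F) : Matrix ι ι F) =
      (Matrix.fromBlocks (x.1.2 : Matrix κ κ F) x.1.1 0 (x.2 : Matrix μ μ F)).submatrix
        e.symm e.symm := rfl

theorem blockMap_injective {ι κ μ : Type} [Fintype ι] [DecidableEq ι] [Fintype κ] [DecidableEq κ]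
    [Fintype μ] [DecidableEq μ] (e : κ ⊕ μ ≃ ι) :
    Function.Injective (blockMap (F := F) e) := by
  rintro ⟨⟨B, A⟩, D⟩ ⟨⟨B', A'⟩, D'⟩ h
  have h1 : ((blockMap e ((B, A), D) : GL ι F) : Matrix ι ι F) =
      ((blockMap e ((B', A'), D') : GL ι F) : Matrix ι ι F) := by rw [h]
  rw [blockMap_coe, blockMap_coe] at h1
  have h2 : Matrix.fromBlocks (A : Matrix κ κ F) B 0 (D : Matrix μ μ F) =
      Matrix.fromBlocks (A' : Matrix κ κ F) B' 0 (D' : Matrix μ μ F) := by
    have := congrArg (fun M => M.submatrix e e) h1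
    simpa using this
  rw [Matrix.fromBlocks_inj] at h2
  obtain ⟨hA, hB, -, hD⟩ := h2
  have hA' : A = A' := Units.ext hA
  have hD' : D = D' := Units.ext hD
  rw [hA', hB, hD']

theorem blockMap_mem {ι κ μ : Type} [Fintype ι] [DecidableEq ι] [Fintype κ] [DecidableEq κ]
    [Fintype μ] [DecidableEq μ] (e : κ ⊕ μ ≃ ι) (x : (Matrix κ μ F × GL κ F) × GL μ F) :
    blockMap e x ∈
      Cfsg.stabilizing (Cfsg.glToMat ι F) {v : ι → F | ∀ i : μ, v (e (Sum.inr i)) = 0} := by
  rw [mem_stab_iff_blocks]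
  intro i j
  rw [blockMap_coe]
  simp

theorem exists_blockMap_eq {ι κ μ : Type} [Fintype ι] [DecidableEq ι] [Fintype κ] [DecidableEq κ]
    [Fintype μ] [DecidableEq μ] (e : κ ⊕ μ ≃ ι) (g : GL ι F)
    (hg : g ∈ Cfsg.stabilizing (Cfsg.glToMat ι F) {v : ι → F | ∀ i : μ, v (e (Sum.inr i)) = 0}) :
    ∃ x, blockMap e x = g := by
  rw [mem_stab_iff_blocks] at hg
  have h0 : ((g : Matrix ι ι F).submatrix e e) =
      Matrix.fromBlocks ((g : Matrix ι ι F).submatrix e e).toBlocks₁₁
        ((g : Matrix ι ι F).submatrix e e).toBlocks₁₂ 0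
        ((g : Matrix ι ι F).submatrix e e).toBlocks₂₂ := by
    conv_lhs => rw [← Matrix.fromBlocks_toBlocks ((g : Matrix ι ι F).submatrix e e)]
    congr 1
    ext i j
    simp [Matrix.toBlocks₂₁, hg]
  have h1 : ((g : Matrix ι ι F).submatrix e e).det ≠ 0 := by
    rw [Matrix.det_submatrix_equiv_self]
    exact (Matrix.isUnits_det_units g).ne_zero
  rw [h0, Matrix.det_fromBlocks_zero₂₁] at h1
  refine ⟨((((g : Matrix ι ι F).submatrix e e).toBlocks₁₂,
    Matrix.GeneralLinearGroup.mkOfDetNeZero _ (left_ne_zero_of_mul h1)),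
    Matrix.GeneralLinearGroup.mkOfDetNeZero _ (right_ne_zero_of_mul h1)), ?_⟩
  apply Units.ext
  rw [blockMap_coe]
  show (Matrix.fromBlocks ((g : Matrix ι ι F).submatrix e e).toBlocks₁₁
        ((g : Matrix ι ι F).submatrix e e).toBlocks₁₂ 0
        ((g : Matrix ι ι F).submatrix e e).toBlocks₂₂).submatrix e.symm e.symm = (g : Matrix ι ι F)
  rw [← h0]
  simp

/-- The order of the block upper triangular group. -/
theorem card_stab_blocks {ι κ μ : Type} [Fintype ι] [DecidableEq ι] [Fintype κ] [DecidableEq κ]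
    [Fintype μ] [DecidableEq μ] (e : κ ⊕ μ ≃ ι) :
    Nat.card ↥(Cfsg.stabilizing (Cfsg.glToMat ι F) {v : ι → F | ∀ i : μ, v (e (Sum.inr i)) = 0}) =
      Nat.card (Matrix κ μ F) * Nat.card (GL κ F) * Nat.card (GL μ F) := by
  rw [← Nat.card_prod, ← Nat.card_prod]
  symm
  refine Nat.card_congr (Equiv.ofBijective
    (fun x => (⟨blockMap e x, blockMap_mem e x⟩ :
      ↥(Cfsg.stabilizing (Cfsg.glToMat ι F) {v : ι → F | ∀ i : μ, v (e (Sum.inr i)) = 0}))) ⟨?_, ?_⟩)
  · intro x y h
    exact blockMap_injective e (congrArg Subtype.val h)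
  · rintro ⟨g, hg⟩
    obtain ⟨x, hx⟩ := exists_blockMap_eq e g hg
    exact ⟨x, Subtype.ext hx⟩

/-- The coordinate subspace in the two descriptions. -/
theorem coord_set_eq (n k : ℕ) (hk : k ≤ n) :
    {v : Fin n → F | ∀ i : Fin n, k ≤ (i : ℕ) → v i = 0} =
      {v : Fin n → F | ∀ i : Fin (n - k), v (eqv n k hk (Sum.inr i)) = 0} := by
  ext v
  simp only [Set.mem_ofPred_eq]
  constructor
  · intro h i
    apply h
    rw [eqv_inr]
    omega
  · intro h i hi
    have h1 := h ⟨(i : ℕ) - k, by omega⟩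
    have h2 : eqv n k hk (Sum.inr ⟨(i : ℕ) - k, by omega⟩) = i := by
      apply Fin.ext
      rw [eqv_inr]
      simp only
      omega
    rwa [h2] at h1

/-- Entry criterion for membership in the stabiliser of the first `k` coordinates. -/
theorem mem_stab_iff (n k : ℕ) (hk : k ≤ n) (g : GL (Fin n) F) :
    g ∈ Cfsg.stabilizing (Cfsg.glToMat (Fin n) F)
        {v : Fin n → F | ∀ i : Fin n, k ≤ (i : ℕ) → v i = 0} ↔
      ∀ a b : Fin n, k ≤ (a : ℕ) → (b : ℕ) < k → (g : Matrix (Fin n) (Fin n) F) a b = 0 := by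
  rw [coord_set_eq n k hk, mem_stab_iff_blocks]
  constructor
  · intro h a b ha hb
    have h1 := h ⟨(a : ℕ) - k, by omega⟩ ⟨(b : ℕ), hb⟩
    have h2 : eqv n k hk (Sum.inr ⟨(a : ℕ) - k, by omega⟩) = a := by
      apply Fin.ext
      rw [eqv_inr]
      simp only
      omega
    have h3 : eqv n k hk (Sum.inl ⟨(b : ℕ), hb⟩) = b := by
      apply Fin.ext
      rw [eqv_inl]
    rwa [h2, h3] at h1
  · intro h i j
    apply h
    · rw [eqv_inr]
      omega
    · rw [eqv_inl]
      exact j.2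

/-- The order of the maximal parabolic subgroup. -/
theorem card_stab (n k : ℕ) (hk : k ≤ n) [Fintype F] :
    Nat.card ↥(Cfsg.stabilizing (Cfsg.glToMat (Fin n) F)
        {v : Fin n → F | ∀ i : Fin n, k ≤ (i : ℕ) → v i = 0}) =
      (Fintype.card F) ^ (k * (n - k)) *
        (∏ i : Fin k, ((Fintype.card F) ^ k - (Fintype.card F) ^ (i : ℕ))) *
        ∏ i : Fin (n - k), ((Fintype.card F) ^ (n - k) - (Fintype.card F) ^ (i : ℕ)) := by
  rw [coord_set_eq n k hk, card_stab_blocks, Matrix.card_GL_field, Matrix.card_GL_field]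
  congr 2
  rw [Nat.card_eq_fintype_card]
  show Fintype.card (Fin k → Fin (n - k) → F) = _
  rw [Fintype.card_fun, Fintype.card_fun, Fintype.card_fin, Fintype.card_fin, ← pow_mul, mul_comm]

end Cfsg.Agent.Lib.Helper5.Parab
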