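import Mathlib
import Cfsg.Agent.S1463

set_option autoImplicit false

namespace Cfsg.Agent.Lib.Helper5.QuadPair

open Matrix

/-- In a finite monoid every element has an idempotent positive power. -/
lemma exists_idem_pow {M : Type*} [Monoid M] [Finite M] (x : M) :
    ∃ N : ℕ, 0 < N ∧ x ^ N * x ^ N = x ^ N := by
  obtain ⟨i, j, hij, hpow⟩ := Finite.exists_ne_map_eq_of_infinite (fun n : ℕ => x ^ n)
  wlog hlt : i < j generalizing i j
  · exact this j i hij.symm hpow.symm (lt_of_le_of_ne (not_lt.mp hlt) hij.symm)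
  obtain ⟨d, rfl⟩ := Nat.exists_eq_add_of_lt hlt
  -- `x ^ i = x ^ (i + d + 1)`
  have step : ∀ n : ℕ, i ≤ n → x ^ (n + (d + 1)) = x ^ n := by
    intro n hn
    obtain ⟨m, rfl⟩ := Nat.exists_eq_add_of_le hn
    calc x ^ (i + m + (d + 1)) = x ^ m * x ^ (i + d + 1) := by rw [← pow_add]; congr 1; ring
      _ = x ^ m * x ^ i := by rw [← hpow]
      _ = x ^ (i + m) := by rw [← pow_add]; congr 1; ring
  have step' : ∀ t n : ℕ, i ≤ n → x ^ (n + t * (d + 1)) = x ^ n := by
    intro t
    induction t with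
    | zero => intro n _; simp
    | succ t ih =>
      intro n hn
      have : n + (t + 1) * (d + 1) = (n + t * (d + 1)) + (d + 1) := by ring
      rw [this, step _ (le_trans hn (Nat.le_add_right _ _)), ih n hn]
  refine ⟨(i + 1) * (d + 1), by positivity, ?_⟩
  rw [← pow_add]
  exact step' (i + 1) ((i + 1) * (d + 1)) (by nlinarith)

/-- Transfer of finiteness and order along an equivariant injection with faithful target
action. -/
lemma card_closure_dvd {G₁ G₂ X₁ X₂ : Type*} [Group G₁] [Group G₂] [Finite G₁]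
    (act₁ : G₁ → X₁ → X₁) (h₁mul : ∀ g h x, act₁ (g * h) x = act₁ g (act₁ h x))
    (h₁one : ∀ x, act₁ 1 x = x)
    (act₂ : G₂ → X₂ → X₂) (h₂mul : ∀ g h x, act₂ (g * h) x = act₂ g (act₂ h x))
    (h₂one : ∀ x, act₂ 1 x = x)
    (h₂f : ∀ g g', (∀ x, act₂ g x = act₂ g' x) → g = g')
    (ι : X₂ → X₁) (hι : Function.Injective ι) (a₁ b₁ : G₁) (a₂ b₂ : G₂)
    (ha : ∀ x, act₁ a₁ (ι x) = ι (act₂ a₂ x)) (hb : ∀ x, act₁ b₁ (ι x) = ι (act₂ b₂ x)) :
    Finite (Subgroup.closure ({a₂, b₂} : Set G₂)) ∧
      Nat.card (Subgroup.closure ({a₂, b₂} : Set G₂)) ∣ Nat.card G₁ := by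
  let T : Subgroup (G₁ × G₂) :=
    { carrier := {q | ∀ x, act₁ q.1 (ι x) = ι (act₂ q.2 x)}
      mul_mem' := by
        intro q q' hq hq' x
        simp only [Prod.fst_mul, Prod.snd_mul]
        rw [h₁mul, hq' x, hq, h₂mul]
      one_mem' := by
        intro x
        simp only [Prod.fst_one, Prod.snd_one]
        rw [h₁one, h₂one]
      inv_mem' := by
        intro q hq x
        simp only [Prod.fst_inv, Prod.snd_inv]
        have h1 : act₁ q.1 (ι (act₂ q.2⁻¹ x)) = ι x := by
          rw [hq, ← h₂mul, mul_inv_cancel, h₂one]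
        calc act₁ q.1⁻¹ (ι x) = act₁ q.1⁻¹ (act₁ q.1 (ι (act₂ q.2⁻¹ x))) := by rw [h1]
          _ = ι (act₂ q.2⁻¹ x) := by rw [← h₁mul, inv_mul_cancel, h₁one] }
  obtain ⟨S, hSdef⟩ : ∃ S : Subgroup (G₁ × G₂),
      S = Subgroup.closure ({(a₁, a₂), (b₁, b₂)} : Set (G₁ × G₂)) := ⟨_, rfl⟩
  have hST : S ≤ T := by
    rw [hSdef, Subgroup.closure_le]
    intro q hq
    rcases hq with rfl | rfl
    · exact ha
    · exact hb
  have hinj : Function.Injective ((MonoidHom.fst G₁ G₂).comp S.subtype) := by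
    intro s s' hss'
    have h1 : (s : G₁ × G₂).1 = (s' : G₁ × G₂).1 := hss'
    have h2 : (s : G₁ × G₂).2 = (s' : G₁ × G₂).2 := by
      apply h₂f
      intro x
      apply hι
      rw [← hST s.2 x, ← hST s'.2 x, h1]
    exact Subtype.ext (Prod.ext h1 h2)
  haveI : Finite S := Finite.of_injective _ hinj
  have hcard : Nat.card S ∣ Nat.card G₁ := Subgroup.card_dvd_of_injective _ hinj
  have hmap : S.map (MonoidHom.snd G₁ G₂) = Subgroup.closure ({a₂, b₂} : Set G₂) := by
    rw [hSdef, MonoidHom.map_closure, Set.image_pair]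
    rfl
  rw [← hmap]
  refine ⟨?_, (Subgroup.card_map_dvd _ _).trans hcard⟩
  exact Finite.of_surjective (fun s : S => (⟨MonoidHom.snd G₁ G₂ s, Subgroup.mem_map_of_mem _ s.2⟩ :
    S.map (MonoidHom.snd G₁ G₂))) (by
      rintro ⟨y, s, hs, rfl⟩
      exact ⟨⟨s, hs⟩, rfl⟩)

/-- There is no odd-order group generated by two opposite transvections over a nonzero
commutative ring of characteristic `p`. -/
lemma no_odd_pair {C : Type*} [CommRing C] [Nontrivial C] (p : ℕ) [Fact p.Prime] (hp : p ≠ 2)
    (hpC : (p : C) = 0) (lam lam' : C) (hlam : lam * lam' = 1) (at_ bt : GL (Fin 2) C)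
    (hat : (at_ : Matrix (Fin 2) (Fin 2) C) = !![1, lam; 0, 1])
    (hbt : (bt : Matrix (Fin 2) (Fin 2) C) = !![1, 0; 1, 1])
    [Finite (Subgroup.closure ({at_, bt} : Set (GL (Fin 2) C)))]
    (hodd : Odd (Nat.card (Subgroup.closure ({at_, bt} : Set (GL (Fin 2) C))))) : False := by
  obtain ⟨𝔪, h𝔪⟩ := Ideal.exists_maximal C
  haveI := h𝔪
  letI : Field (C ⧸ 𝔪) := Ideal.Quotient.field 𝔪
  obtain ⟨φ, hφ⟩ : ∃ φ : C →+* C ⧸ 𝔪, φ = Ideal.Quotient.mk 𝔪 := ⟨_, rfl⟩
  have hpk : (p : C ⧸ 𝔪) = 0 := by
    have := congrArg φ hpC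
    simpa using this
  haveI : CharP (C ⧸ 𝔪) p := (CharP.charP_iff_prime_eq_zero (Fact.out : p.Prime)).mpr hpk
  obtain ⟨f, hf⟩ : ∃ f : GL (Fin 2) C →* GL (Fin 2) (C ⧸ 𝔪),
      f = Matrix.GeneralLinearGroup.map φ := ⟨_, rfl⟩
  obtain ⟨Hbar, hHbar⟩ : ∃ Hbar : Subgroup (GL (Fin 2) (C ⧸ 𝔪)),
      Hbar = (Subgroup.closure ({at_, bt} : Set (GL (Fin 2) C))).map f := ⟨_, rfl⟩
  haveI : Finite Hbar := by
    rw [hHbar]
    exact Finite.of_surjective (fun s : Subgroup.closure ({at_, bt} : Set (GL (Fin 2) C)) =>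
      (⟨f s, Subgroup.mem_map_of_mem _ s.2⟩ :
        (Subgroup.closure ({at_, bt} : Set (GL (Fin 2) C))).map f)) (by
      rintro ⟨y, s, hs, rfl⟩
      exact ⟨⟨s, hs⟩, rfl⟩)
  have hodd' : Odd (Nat.card Hbar) := by
    rw [hHbar]
    exact Odd.of_dvd_nat hodd (Subgroup.card_map_dvd _ f)
  have hat' : ((f at_ : GL (Fin 2) (C ⧸ 𝔪)) : Matrix (Fin 2) (Fin 2) (C ⧸ 𝔪))
      = !![1, φ lam; 0, 1] := by
    ext i j
    rw [hf, Matrix.GeneralLinearGroup.map_apply, hat]
    fin_cases i <;> fin_cases j <;> simp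
  have hbt' : ((f bt : GL (Fin 2) (C ⧸ 𝔪)) : Matrix (Fin 2) (Fin 2) (C ⧸ 𝔪))
      = !![1, 0; 1, 1] := by
    ext i j
    rw [hf, Matrix.GeneralLinearGroup.map_apply, hbt]
    fin_cases i <;> fin_cases j <;> simp
  have hlam0 : φ lam ≠ 0 := by
    intro h
    have := congrArg φ hlam
    rw [map_mul, h, zero_mul, map_one] at this
    exact zero_ne_one this
  have hatH : f at_ ∈ Hbar := by
    rw [hHbar]; exact Subgroup.mem_map_of_mem f (Subgroup.subset_closure (by simp))
  have hbtH : f bt ∈ Hbar := by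
    rw [hHbar]; exact Subgroup.mem_map_of_mem f (Subgroup.subset_closure (by simp))
  refine Cfsg.Agent.S1463.result p hp Hbar hodd' ?_ ?_
  · intro v hv
    by_cases hv1 : v 1 = 0
    · refine ⟨f bt, hbtH, ?_⟩
      rw [hbt', Submodule.mem_span_singleton]
      rintro ⟨c, hc⟩
      have h1 := congrFun hc 1
      simp [Matrix.mulVec, dotProduct, Fin.sum_univ_two, hv1] at h1
      apply hv
      funext i; fin_cases i
      · simpa using h1.symm
      · simpa using hv1
    · refine ⟨f at_, hatH, ?_⟩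
      rw [hat', Submodule.mem_span_singleton]
      rintro ⟨c, hc⟩
      have h0 := congrFun hc 0
      have h1 := congrFun hc 1
      simp [Matrix.mulVec, dotProduct, Fin.sum_univ_two] at h0 h1
      have hc1 : c = 1 := by
        have : (c - 1) * v 1 = 0 := by linear_combination h1
        rcases mul_eq_zero.mp this with e | e
        · exact sub_eq_zero.mp e
        · exact absurd e hv1
      rw [hc1, one_mul] at h0
      have : φ lam * v 1 = 0 := by linear_combination -h0
      rcases mul_eq_zero.mp this with e | e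
      · exact hlam0 e
      · exact hv1 e
  · have hpow : ∀ n : ℕ, (!![1, 0; 1, 1] : Matrix (Fin 2) (Fin 2) (C ⧸ 𝔪)) ^ n
        = !![1, 0; (n : C ⧸ 𝔪), 1] := by
      intro n
      induction n with
      | zero =>
        ext i j; fin_cases i <;> fin_cases j <;> simp
      | succ n ih =>
        rw [pow_succ, ih]
        ext i j; fin_cases i <;> fin_cases j <;> simp [Matrix.mul_apply, Fin.sum_univ_two]
    have hbp : (f bt) ^ p = 1 := by
      apply Units.ext
      rw [Units.val_pow_eq_pow_val, hbt', hpow, hpk]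
      ext i j; fin_cases i <;> fin_cases j <;> simp
    have hb1 : f bt ≠ 1 := by
      intro h
      have := congrArg (fun g : GL (Fin 2) (C ⧸ 𝔪) => (g : Matrix (Fin 2) (Fin 2) (C ⧸ 𝔪)) 1 0) h
      simp only [hbt'] at this
      simp at this
    have hord : orderOf (f bt) = p := by
      have hdvd := orderOf_dvd_of_pow_eq_one hbp
      rcases (Nat.dvd_prime (Fact.out : p.Prime)).mp hdvd with h | h
      · exact absurd (orderOf_eq_one_iff.mp h) hb1
      · exact h
    have : orderOf (⟨f bt, hbtH⟩ : Hbar) = p := by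
      rw [← hord]
      exact (Subgroup.orderOf_mk (f bt) hbtH)
    rw [← this]
    exact orderOf_dvd_natCard _

section Core

variable {V : Type*} [AddCommGroup V]

/-- The filtration by images of words of given length. -/
def filt (A B : Module.End ℤ V) : ℕ → Submodule ℤ V
  | 0 => ⊤
  | (i + 1) => (filt A B i).map A ⊔ (filt A B i).map B

lemma mem_filt_succ (A B : Module.End ℤ V) (i : ℕ) (w : V) :
    w ∈ filt A B (i + 1) ↔ ∃ x ∈ filt A B i, ∃ y ∈ filt A B i, A x + B y = w := by
  show w ∈ (filt A B i).map A ⊔ (filt A B i).map B ↔ _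
  rw [Submodule.mem_sup]
  constructor
  · rintro ⟨y, hy, z, hz, rfl⟩
    obtain ⟨x, hx, rfl⟩ := Submodule.mem_map.mp hy
    obtain ⟨x', hx', rfl⟩ := Submodule.mem_map.mp hz
    exact ⟨x, hx, x', hx', rfl⟩
  · rintro ⟨x, hx, y, hy, rfl⟩
    exact ⟨A x, Submodule.mem_map_of_mem hx, B y, Submodule.mem_map_of_mem hy, rfl⟩

lemma filt_succ_le (A B : Module.End ℤ V) (i : ℕ) : filt A B (i + 1) ≤ filt A B i := by
  induction i with
  | zero => exact le_top
  | succ i ih =>
    intro w hw
    rw [mem_filt_succ] at hw ⊢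
    obtain ⟨x, hx, y, hy, rfl⟩ := hw
    exact ⟨x, ih hx, y, ih hy, rfl⟩

/-- Odd levels of the filtration lie in the image of powers of `Λ`. -/
lemma filt_odd (A B L : Module.End ℤ V) (hAA : A * A = 0) (hBB : B * B = 0)
    (hLA : A * B * A = L * A) (hLB : B * A * B = L * B)
    (hcA : ∀ n : ℕ, A * L ^ n = L ^ n * A) (hcB : ∀ n : ℕ, B * L ^ n = L ^ n * B) (j : ℕ) :
    ∀ w ∈ filt A B (2 * j + 1), ∃ x y : V, w = (L ^ j) (A x) + (L ^ j) (B y) := by
  induction j with
  | zero =>
    intro w hw
    rw [mem_filt_succ] at hw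
    obtain ⟨x, _, y, _, rfl⟩ := hw
    exact ⟨x, y, by simp⟩
  | succ j ih =>
    intro w hw
    have e : 2 * (j + 1) + 1 = (2 * j + 1) + 1 + 1 := by ring
    rw [e, mem_filt_succ] at hw
    obtain ⟨w₁, hw₁, w₂, hw₂, rfl⟩ := hw
    rw [mem_filt_succ] at hw₁ hw₂
    obtain ⟨x₁, _, y₁, hy₁, rfl⟩ := hw₁
    obtain ⟨x₂, hx₂, y₂, _, rfl⟩ := hw₂
    obtain ⟨s, t, rfl⟩ := ih y₁ hy₁
    obtain ⟨s', t', rfl⟩ := ih x₂ hx₂
    refine ⟨s, t', ?_⟩
    have h1 : A * A = 0 := hAA
    have e1 : ∀ z : V, A (A z) = 0 := fun z => by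
      rw [← Module.End.mul_apply, hAA]; rfl
    have e2 : ∀ z : V, B (B z) = 0 := fun z => by
      rw [← Module.End.mul_apply, hBB]; rfl
    have e3 : ∀ z : V, A (B ((L ^ j) (A z))) = (L ^ (j + 1)) (A z) := fun z => by
      have : A * B * (L ^ j * A) = L ^ (j + 1) * A := by
        calc A * B * (L ^ j * A) = A * (B * L ^ j) * A := by simp only [mul_assoc]
          _ = A * (L ^ j * B) * A := by rw [hcB]
          _ = (A * L ^ j) * B * A := by simp only [mul_assoc]
          _ = L ^ j * (A * B * A) := by rw [hcA]; simp only [mul_assoc]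
          _ = L ^ (j + 1) * A := by rw [hLA, ← mul_assoc, ← pow_succ]
      have := congrArg (fun f : Module.End ℤ V => f z) this
      simpa [Module.End.mul_apply] using this
    have e4 : ∀ z : V, A (B ((L ^ j) (B z))) = 0 := fun z => by
      have : A * B * (L ^ j * B) = 0 := by
        calc A * B * (L ^ j * B) = A * (B * L ^ j) * B := by simp only [mul_assoc]
          _ = A * (L ^ j * B) * B := by rw [hcB]
          _ = A * L ^ j * (B * B) := by simp only [mul_assoc]
          _ = 0 := by rw [hBB, mul_zero]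
      have := congrArg (fun f : Module.End ℤ V => f z) this
      simpa [Module.End.mul_apply] using this
    have e5 : ∀ z : V, B (A ((L ^ j) (B z))) = (L ^ (j + 1)) (B z) := fun z => by
      have : B * A * (L ^ j * B) = L ^ (j + 1) * B := by
        calc B * A * (L ^ j * B) = B * (A * L ^ j) * B := by simp only [mul_assoc]
          _ = B * (L ^ j * A) * B := by rw [hcA]
          _ = (B * L ^ j) * A * B := by simp only [mul_assoc]
          _ = L ^ j * (B * A * B) := by rw [hcB]; simp only [mul_assoc]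
          _ = L ^ (j + 1) * B := by rw [hLB, ← mul_assoc, ← pow_succ]
      have := congrArg (fun f : Module.End ℤ V => f z) this
      simpa [Module.End.mul_apply] using this
    have e6 : ∀ z : V, B (A ((L ^ j) (A z))) = 0 := fun z => by
      have : B * A * (L ^ j * A) = 0 := by
        calc B * A * (L ^ j * A) = B * (A * L ^ j) * A := by simp only [mul_assoc]
          _ = B * (L ^ j * A) * A := by rw [hcA]
          _ = B * L ^ j * (A * A) := by simp only [mul_assoc]
          _ = 0 := by rw [hAA, mul_zero]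
      have := congrArg (fun f : Module.End ℤ V => f z) this
      simpa [Module.End.mul_apply] using this
    simp only [map_add, e1, e2, e3, e4, e5, e6, zero_add, add_zero]

end Core

section Core2

variable {V : Type*} [AddCommGroup V]

/-- Nilpotent case: the group acts unipotently. -/
lemma unipotent_of_nilpotent {D : Type*} [Group D] [Finite D] (ρ : D →* Module.End ℤ V) (a b : D)
    (A B L : Module.End ℤ V)
    (hA : A = ρ a - 1) (hB : B = ρ b - 1) (hAA : A * A = 0) (hBB : B * B = 0)
    (hLA : A * B * A = L * A) (hLB : B * A * B = L * B)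
    (hcA : ∀ n : ℕ, A * L ^ n = L ^ n * A) (hcB : ∀ n : ℕ, B * L ^ n = L ^ n * B) (N : ℕ)
    (hN : L ^ N = 0) :
    ∀ d ∈ Subgroup.closure ({a, b} : Set D), (ρ d - 1) ^ (2 * N + 1) = 0 := by
  have hone : ∀ i : ℕ, ∀ w ∈ filt A B i, ρ 1 w - w ∈ filt A B (i + 1) := by
    intro i w _
    rw [map_one, Module.End.one_apply, sub_self]
    exact Submodule.zero_mem _
  have hmul : ∀ x y : D, (∀ i : ℕ, ∀ w ∈ filt A B i, ρ x w - w ∈ filt A B (i + 1)) →
      (∀ i : ℕ, ∀ w ∈ filt A B i, ρ y w - w ∈ filt A B (i + 1)) →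
      ∀ i : ℕ, ∀ w ∈ filt A B i, ρ (x * y) w - w ∈ filt A B (i + 1) := by
    intro x y hx hy i w hw
    have hz := hy i w hw
    have h1 := hx (i + 1) _ hz
    have h2 := hx i w hw
    have e : ρ (x * y) w - w = (ρ x (ρ y w - w) - (ρ y w - w)) + (ρ y w - w) + (ρ x w - w) := by
      rw [map_mul, Module.End.mul_apply, map_sub]; abel
    rw [e]
    exact Submodule.add_mem _ (Submodule.add_mem _ (filt_succ_le A B (i + 1) h1) hz) h2
  have hstab : ∀ d ∈ Subgroup.closure ({a, b} : Set D), ∀ i : ℕ, ∀ w ∈ filt A B i,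
      ρ d w - w ∈ filt A B (i + 1) := by
    intro d hd
    refine Subgroup.closure_induction (p := fun x _ => ∀ i : ℕ, ∀ w ∈ filt A B i,
      ρ x w - w ∈ filt A B (i + 1)) ?_ hone ?_ ?_ hd
    · intro x hx i w hw
      rw [mem_filt_succ]
      rcases hx with rfl | rfl
      · refine ⟨w, hw, 0, Submodule.zero_mem _, ?_⟩
        rw [hA, map_zero, add_zero, LinearMap.sub_apply, Module.End.one_apply]
      · refine ⟨0, Submodule.zero_mem _, w, hw, ?_⟩
        rw [hB, map_zero, zero_add, LinearMap.sub_apply, Module.End.one_apply]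
    · intro x y _ _ hx hy
      exact hmul x y hx hy
    · intro x _ hx
      have hpow : ∀ n : ℕ, ∀ i : ℕ, ∀ w ∈ filt A B i, ρ (x ^ n) w - w ∈ filt A B (i + 1) := by
        intro n
        induction n with
        | zero => rw [pow_zero]; exact hone
        | succ n ih => rw [pow_succ]; exact hmul _ _ ih hx
      have hinv : x⁻¹ = x ^ (orderOf x - 1) := by
        apply inv_eq_of_mul_eq_one_right
        rw [← pow_succ', Nat.sub_add_cancel (orderOf_pos x), pow_orderOf_eq_one]
      rw [hinv]
      exact hpow _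
  have hfil : ∀ d ∈ Subgroup.closure ({a, b} : Set D), ∀ n : ℕ, ∀ w : V,
      ((ρ d - 1) ^ n) w ∈ filt A B n := by
    intro d hd n
    induction n with
    | zero => intro w; exact Submodule.mem_top
    | succ n ih =>
      intro w
      rw [pow_succ', Module.End.mul_apply, LinearMap.sub_apply, Module.End.one_apply]
      exact hstab d hd n _ (ih w)
  intro d hd
  ext w
  obtain ⟨x, y, hxy⟩ := filt_odd A B L hAA hBB hLA hLB hcA hcB N _ (hfil d hd (2 * N + 1) w)
  rw [hxy, hN]
  simp

/-- A unipotent endomorphism of a group of exponent `p` has `p`-power order. -/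
lemma pow_eq_one_of_unipotent (p : ℕ) [Fact p.Prime] (hpV : ∀ v : V, p • v = 0)
    (X : Module.End ℤ V) (M : ℕ) (hX : (X - 1) ^ M = 0) : X ^ (p ^ M) = 1 := by
  rcases subsingleton_or_nontrivial (Module.End ℤ V) with h | h
  · exact Subsingleton.elim _ _
  · have hp0 : ((p : ℕ) : Module.End ℤ V) = 0 := by
      ext v
      rw [Module.End.natCast_apply, hpV]; rfl
    haveI : CharP (Module.End ℤ V) p :=
      (CharP.charP_iff_prime_eq_zero (Fact.out : p.Prime)).mpr hp0
    have h1 : (X - 1) ^ (p ^ M) = 0 := by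
      have hle : M ≤ p ^ M := (Nat.lt_pow_self (Fact.out : p.Prime).one_lt).le
      obtain ⟨t, ht⟩ := Nat.exists_eq_add_of_le hle
      rw [ht, pow_add, hX, zero_mul]
    rw [sub_pow_char_pow_of_commute p M (Commute.one_right X), one_pow, sub_eq_zero] at h1
    exact h1

/-- Anything commuting with `L` commutes with polynomials in `L`. -/
lemma commute_aeval (X L : Module.End ℤ V) (h : X * L = L * X) (g : Polynomial ℤ) :
    X * Polynomial.aeval L g = Polynomial.aeval L g * X := by
  have hpow : ∀ n : ℕ, X * L ^ n = L ^ n * X := by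
    intro n
    induction n with
    | zero => simp
    | succ n ih => rw [pow_succ, ← mul_assoc, ih, mul_assoc, h, ← mul_assoc]
  induction g using Polynomial.induction_on' with
  | add f g hf hg => rw [map_add, mul_add, add_mul, hf, hg]
  | monomial n c =>
    rw [Polynomial.aeval_monomial, ← mul_assoc, ← Algebra.commutes, mul_assoc, hpow, ← mul_assoc]

end Core2

section Core3

variable {V : Type*} [AddCommGroup V] [Finite V]

/-- The core theorem: an odd-order group generated by two quadratic elements acts on a finite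
elementary abelian `p`-group (`p` odd) as a `p`-group. -/
theorem core (p : ℕ) [Fact p.Prime] (hp : p ≠ 2) (hpV : ∀ v : V, p • v = 0)
    {D : Type*} [Group D] [Finite D] (hodd : Odd (Nat.card D))
    (ρ : D →* Module.End ℤ V) (a b : D)
    (ha : (ρ a - 1) * (ρ a - 1) = 0) (hb : (ρ b - 1) * (ρ b - 1) = 0) :
    ∀ d ∈ Subgroup.closure ({a, b} : Set D), ∃ k : ℕ, ρ d ^ (p ^ k) = 1 := by
  obtain ⟨A, hA⟩ : ∃ A, A = ρ a - 1 := ⟨_, rfl⟩
  obtain ⟨B, hB⟩ : ∃ B, B = ρ b - 1 := ⟨_, rfl⟩
  rw [← hA] at ha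
  rw [← hB] at hb
  obtain ⟨L, hL⟩ : ∃ L, L = A * B + B * A := ⟨_, rfl⟩
  have hLA : A * B * A = L * A := by
    rw [hL, add_mul, mul_assoc B A A, ha, mul_zero, add_zero]
  have hAL : A * L = A * B * A := by
    rw [hL, mul_add, ← mul_assoc, ha, zero_mul, zero_add, mul_assoc]
  have hLB : B * A * B = L * B := by
    rw [hL, add_mul, mul_assoc A B B, hb, mul_zero, zero_add]
  have hBL : B * L = B * A * B := by
    rw [hL, mul_add, ← mul_assoc B B A, hb, zero_mul, add_zero, mul_assoc]
  have hcA1 : A * L = L * A := by rw [hAL, hLA]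
  have hcB1 : B * L = L * B := by rw [hBL, hLB]
  have hcA : ∀ n : ℕ, A * L ^ n = L ^ n * A := by
    intro n
    induction n with
    | zero => simp
    | succ n ih => rw [pow_succ, ← mul_assoc, ih, mul_assoc, hcA1, ← mul_assoc]
  have hcB : ∀ n : ℕ, B * L ^ n = L ^ n * B := by
    intro n
    induction n with
    | zero => simp
    | succ n ih => rw [pow_succ, ← mul_assoc, ih, mul_assoc, hcB1, ← mul_assoc]
  haveI : Finite (Module.End ℤ V) :=
    Finite.of_injective (fun f : Module.End ℤ V => (f : V → V)) DFunLike.coe_injective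
  obtain ⟨N, hNpos, hNid⟩ := exists_idem_pow L
  by_cases he0 : L ^ N = 0
  · intro d hd
    exact ⟨2 * N + 1, pow_eq_one_of_unipotent p hpV (ρ d) (2 * N + 1)
      (unipotent_of_nilpotent ρ a b A B L hA hB ha hb hLA hLB hcA hcB N he0 d hd)⟩
  · exfalso
    obtain ⟨e, he⟩ : ∃ e, e = L ^ N := ⟨_, rfl⟩
    rw [← he] at he0 hNid
    have heA : A * e = e * A := by rw [he]; exact hcA N
    have heB : B * e = e * B := by rw [he]; exact hcB N
    have heL : e = L ^ (N - 1) * L := by rw [he, ← pow_succ, Nat.sub_add_cancel hNpos]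
    have hABe : A * B * e ≠ 0 := by
      intro h
      have h1 : L * B * e = 0 := by
        calc L * B * e = B * A * B * e := by rw [hLB]
          _ = B * (A * B * e) := by simp only [mul_assoc]
          _ = 0 := by rw [h, mul_zero]
      have h2 : B * e = 0 := by
        calc B * e = B * (e * e) := by rw [hNid]
          _ = (B * e) * e := by rw [mul_assoc]
          _ = (e * B) * e := by rw [heB]
          _ = e * (B * e) := by rw [mul_assoc]
          _ = L ^ (N - 1) * (L * B * e) := by
            nth_rewrite 1 [heL]; simp only [mul_assoc]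
          _ = 0 := by rw [h1, mul_zero]
      have h3 : L * e = 0 := by
        calc L * e = (A * B + B * A) * e := by rw [hL]
          _ = A * B * e + B * (A * e) := by rw [add_mul, mul_assoc B A e]
          _ = 0 + B * (e * A) := by rw [h, heA]
          _ = 0 := by rw [zero_add, ← mul_assoc, h2, zero_mul]
      apply he0
      calc e = e * e := hNid.symm
        _ = L ^ (N - 1) * (L * e) := by nth_rewrite 1 [heL]; rw [mul_assoc]
        _ = 0 := by rw [h3, mul_zero]
    obtain ⟨v, hv⟩ : ∃ v : V, (A * B * e) v ≠ 0 := by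
      by_contra hall
      push_neg at hall
      exact hABe (LinearMap.ext fun v => by rw [hall v]; rfl)
    obtain ⟨u, hu⟩ : ∃ u : V, u = (A * B * e) v := ⟨_, rfl⟩
    have hu0 : u ≠ 0 := by rw [hu]; exact hv
    have hAu : A u = 0 := by
      have : A * (A * B * e) = 0 := by rw [← mul_assoc, ← mul_assoc, ha, zero_mul, zero_mul]
      rw [hu, ← Module.End.mul_apply, this]; rfl
    have hABu : A (B u) = L u := by
      have : A * B * (A * B * e) = L * (A * B * e) := by
        simp only [← mul_assoc]; rw [hLA]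
      have h' := congrArg (fun f : Module.End ℤ V => f v) this
      rw [hu]
      exact h'
    have hNu : (L ^ N) u = u := by
      have : e * (A * B * e) = A * B * e := by
        calc e * (A * B * e) = (e * A) * B * e := by simp only [mul_assoc]
          _ = A * (e * B) * e := by rw [← heA]; simp only [mul_assoc]
          _ = A * B * (e * e) := by rw [← heB]; simp only [mul_assoc]
          _ = A * B * e := by rw [hNid]
      rw [← he, hu, ← Module.End.mul_apply, this]
    have hBB' : ∀ z : V, B (B z) = 0 := fun z => by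
      rw [← Module.End.mul_apply, hb]; rfl
    -- the annihilator ideal
    obtain ⟨I, hI⟩ : ∃ I : Ideal (Polynomial ℤ),
        ∀ g, g ∈ I ↔ (Polynomial.aeval L g) u = 0 :=
      ⟨{ carrier := {g | (Polynomial.aeval L g) u = 0}
         add_mem' := by
           intro g g' hg hg'
           have hg1 : (Polynomial.aeval L g) u = 0 := hg
           have hg2 : (Polynomial.aeval L g') u = 0 := hg'
           show (Polynomial.aeval L (g + g')) u = 0
           rw [map_add, LinearMap.add_apply, hg1, hg2, add_zero]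
         zero_mem' := by
           show (Polynomial.aeval L (0 : Polynomial ℤ)) u = 0
           rw [map_zero]; rfl
         smul_mem' := by
           intro c g hg
           have hg1 : (Polynomial.aeval L g) u = 0 := hg
           show (Polynomial.aeval L (c * g)) u = 0
           rw [map_mul, Module.End.mul_apply, hg1, map_zero] }, fun g => Iff.rfl⟩
    obtain ⟨s, hs⟩ : ∃ s : Polynomial ℤ ⧸ I → Polynomial ℤ,
        ∀ c, Ideal.Quotient.mk I (s c) = c :=
      ⟨Function.surjInv Ideal.Quotient.mk_surjective, Function.surjInv_eq _⟩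
    obtain ⟨j, hjdef⟩ : ∃ j : Polynomial ℤ ⧸ I → V,
        ∀ c, j c = (Polynomial.aeval L (s c)) u := ⟨_, fun c => rfl⟩
    have hj : ∀ g : Polynomial ℤ, j (Ideal.Quotient.mk I g) = (Polynomial.aeval L g) u := by
      intro g
      have h1 : s (Ideal.Quotient.mk I g) - g ∈ I := Ideal.Quotient.eq.mp (hs _)
      have h2 := (hI _).mp h1
      rw [map_sub, LinearMap.sub_apply, sub_eq_zero] at h2
      rw [hjdef, h2]
    have hjadd : ∀ c c' : Polynomial ℤ ⧸ I, j (c + c') = j c + j c' := by
      intro c c'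
      have : c + c' = Ideal.Quotient.mk I (s c + s c') := by rw [map_add, hs, hs]
      rw [this, hj, map_add, LinearMap.add_apply, ← hjdef, ← hjdef]
    have hjlam : ∀ c : Polynomial ℤ ⧸ I,
        j (Ideal.Quotient.mk I Polynomial.X * c) = L (j c) := by
      intro c
      have : Ideal.Quotient.mk I Polynomial.X * c
          = Ideal.Quotient.mk I (Polynomial.X * s c) := by rw [map_mul, hs]
      rw [this, hj, map_mul, Polynomial.aeval_X, Module.End.mul_apply, ← hjdef]
    have hjinj : ∀ c c' : Polynomial ℤ ⧸ I, j c = j c' → c = c' := by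
      intro c c' h
      rw [hjdef, hjdef] at h
      have h1 : s c - s c' ∈ I := by
        rw [hI, map_sub, LinearMap.sub_apply, h, sub_self]
      have := Ideal.Quotient.eq.mpr h1
      rwa [hs, hs] at this
    have hAj : ∀ c : Polynomial ℤ ⧸ I, A (j c) = 0 := by
      intro c
      calc A (j c) = (A * Polynomial.aeval L (s c)) u := by rw [hjdef]; rfl
        _ = (Polynomial.aeval L (s c) * A) u := by rw [commute_aeval A L hcA1]
        _ = Polynomial.aeval L (s c) (A u) := rfl
        _ = 0 := by rw [hAu, map_zero]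
    have hABj : ∀ c : Polynomial ℤ ⧸ I, A (B (j c)) = L (j c) := by
      intro c
      have hAB : A * B * L = L * (A * B) := by
        rw [mul_assoc, hcB1, ← mul_assoc, hcA1, mul_assoc]
      calc A (B (j c)) = (A * B * Polynomial.aeval L (s c)) u := by rw [hjdef]; rfl
        _ = (Polynomial.aeval L (s c) * (A * B)) u := by rw [commute_aeval (A * B) L hAB]
        _ = Polynomial.aeval L (s c) (A (B u)) := rfl
        _ = Polynomial.aeval L (s c) (L u) := by rw [hABu]
        _ = (Polynomial.aeval L (s c) * L) u := rfl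
        _ = (L * Polynomial.aeval L (s c)) u := by rw [commute_aeval L L rfl]
        _ = L (j c) := by rw [hjdef]; rfl
    have hNj : ∀ c : Polynomial ℤ ⧸ I, (L ^ N) (j c) = j c := by
      intro c
      have hLN : L ^ N * L = L * L ^ N := by rw [← pow_succ, ← pow_succ']
      calc (L ^ N) (j c) = (L ^ N * Polynomial.aeval L (s c)) u := by rw [hjdef]; rfl
        _ = (Polynomial.aeval L (s c) * L ^ N) u := by rw [commute_aeval (L ^ N) L hLN]
        _ = Polynomial.aeval L (s c) ((L ^ N) u) := rfl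
        _ = j c := by rw [hNu, hjdef]
    haveI hnt : Nontrivial (Polynomial ℤ ⧸ I) := by
      rw [Ideal.Quotient.nontrivial_iff]
      intro h
      have : (1 : Polynomial ℤ) ∈ I := by rw [h]; trivial
      rw [hI, map_one, Module.End.one_apply] at this
      exact hu0 this
    have hpC : ((p : ℕ) : Polynomial ℤ ⧸ I) = 0 := by
      have : ((p : ℕ) : Polynomial ℤ ⧸ I) = Ideal.Quotient.mk I ((p : ℕ) : Polynomial ℤ) := by
        rw [map_natCast]
      rw [this, Ideal.Quotient.eq_zero_iff_mem, hI, map_natCast, Module.End.natCast_apply, hpV]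
    obtain ⟨lam, hlamdef⟩ : ∃ lam : Polynomial ℤ ⧸ I, lam = Ideal.Quotient.mk I Polynomial.X :=
      ⟨_, rfl⟩
    have hlam : lam * Ideal.Quotient.mk I (Polynomial.X ^ (N - 1)) = 1 := by
      rw [hlamdef, ← map_mul, ← pow_succ', Nat.sub_add_cancel hNpos, ← map_one (Ideal.Quotient.mk I),
        Ideal.Quotient.eq, hI, map_sub, map_pow, Polynomial.aeval_X, map_one, LinearMap.sub_apply,
        hNu, Module.End.one_apply, sub_self]
    -- the two transvections
    obtain ⟨at_, hat⟩ : ∃ at_ : GL (Fin 2) (Polynomial ℤ ⧸ I),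
        (at_ : Matrix (Fin 2) (Fin 2) (Polynomial ℤ ⧸ I)) = !![1, lam; 0, 1] :=
      ⟨⟨!![1, lam; 0, 1], !![1, -lam; 0, 1],
        by ext i j; fin_cases i <;> fin_cases j <;> simp [Matrix.mul_apply, Fin.sum_univ_two],
        by ext i j; fin_cases i <;> fin_cases j <;> simp [Matrix.mul_apply, Fin.sum_univ_two]⟩,
        rfl⟩
    obtain ⟨bt, hbt⟩ : ∃ bt : GL (Fin 2) (Polynomial ℤ ⧸ I),
        (bt : Matrix (Fin 2) (Fin 2) (Polynomial ℤ ⧸ I)) = !![1, 0; 1, 1] :=
      ⟨⟨!![1, 0; 1, 1], !![1, 0; -1, 1],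
        by ext i j; fin_cases i <;> fin_cases j <;> simp [Matrix.mul_apply, Fin.sum_univ_two],
        by ext i j; fin_cases i <;> fin_cases j <;> simp [Matrix.mul_apply, Fin.sum_univ_two]⟩,
        rfl⟩
    obtain ⟨ι, hιdef⟩ : ∃ ι : (Fin 2 → Polynomial ℤ ⧸ I) → V,
        ∀ c, ι c = j (c 0) + B (j (c 1)) := ⟨_, fun c => rfl⟩
    have hιinj : Function.Injective ι := by
      intro c c' h
      rw [hιdef, hιdef] at h
      have h1 := congrArg A h
      rw [map_add, map_add, hAj, hAj, hABj, hABj, zero_add, zero_add] at h1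
      have h2 := congrArg (L ^ (N - 1)) h1
      rw [← Module.End.mul_apply, ← Module.End.mul_apply, ← pow_succ, Nat.sub_add_cancel hNpos,
        hNj, hNj] at h2
      have h3 : c 1 = c' 1 := hjinj _ _ h2
      rw [h3] at h
      have h4 : c 0 = c' 0 := hjinj _ _ (add_right_cancel h)
      funext i; fin_cases i
      · exact h4
      · exact h3
    have hρa : ρ a = A + 1 := by rw [hA]; abel
    have hρb : ρ b = B + 1 := by rw [hB]; abel
    have key := card_closure_dvd (G₁ := D) (G₂ := GL (Fin 2) (Polynomial ℤ ⧸ I))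
      (fun d x => ρ d x) (fun g h x => by simp only [map_mul, Module.End.mul_apply])
      (fun x => by simp only [map_one, Module.End.one_apply])
      (fun g c => (g : Matrix (Fin 2) (Fin 2) (Polynomial ℤ ⧸ I)).mulVec c)
      (fun g h x => by simp only [Units.val_mul, Matrix.mulVec_mulVec])
      (fun x => by simp only [Units.val_one, Matrix.one_mulVec])
      (fun g g' h => Units.ext (Matrix.mulVec_injective (funext h)))
      ι hιinj a b at_ bt
      (by
        intro c
        have e0 : ((at_ : Matrix (Fin 2) (Fin 2) (Polynomial ℤ ⧸ I)).mulVec c) 0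
            = c 0 + lam * c 1 := by
          rw [hat]; simp [Matrix.mulVec, dotProduct, Fin.sum_univ_two]
        have e1 : ((at_ : Matrix (Fin 2) (Fin 2) (Polynomial ℤ ⧸ I)).mulVec c) 1 = c 1 := by
          rw [hat]; simp [Matrix.mulVec, dotProduct, Fin.sum_univ_two]
        show ρ a (ι c) = ι ((at_ : Matrix (Fin 2) (Fin 2) (Polynomial ℤ ⧸ I)).mulVec c)
        rw [hιdef, hιdef, e0, e1, hρa, LinearMap.add_apply, Module.End.one_apply, map_add, hAj,
          hABj, hjadd, hlamdef, hjlam]
        abel)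
      (by
        intro c
        have e0 : ((bt : Matrix (Fin 2) (Fin 2) (Polynomial ℤ ⧸ I)).mulVec c) 0 = c 0 := by
          rw [hbt]; simp [Matrix.mulVec, dotProduct, Fin.sum_univ_two]
        have e1 : ((bt : Matrix (Fin 2) (Fin 2) (Polynomial ℤ ⧸ I)).mulVec c) 1
            = c 0 + c 1 := by
          rw [hbt]; simp [Matrix.mulVec, dotProduct, Fin.sum_univ_two]
        show ρ b (ι c) = ι ((bt : Matrix (Fin 2) (Fin 2) (Polynomial ℤ ⧸ I)).mulVec c)
        rw [hιdef, hιdef, e0, e1, hρb, LinearMap.add_apply, Module.End.one_apply, map_add, hBB',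
          hjadd, map_add]
        abel)
    obtain ⟨hfin, hdvd⟩ := key
    haveI := hfin
    exact no_odd_pair p hp hpC lam _ hlam at_ bt hat hbt (Odd.of_dvd_nat hodd hdvd)

end Core3

end Cfsg.Agent.Lib.Helper5.QuadPair
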