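import Mathlib
import Cfsg.Agent.Lib.Helper5.QuadPair
import Cfsg.Agent.S0199

set_option autoImplicit false

namespace Cfsg.Agent.Lib.Helper5.QuadPair

open scoped commutatorElement

/-- Multiplicative version of the core theorem. -/
theorem core_mul {Q : Type*} [CommGroup Q] [Finite Q] (p : ℕ) [Fact p.Prime] (hp : p ≠ 2)
    (hQ : ∀ x : Q, x ^ p = 1) {D : Type*} [Group D] [Finite D] (hodd : Odd (Nat.card D))
    (φ : D →* Monoid.End Q) (a b : D)
    (ha : ∀ x : Q, φ a (φ a x) * x = φ a x * φ a x)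
    (hb : ∀ x : Q, φ b (φ b x) * x = φ b x * φ b x) :
    ∀ d ∈ Subgroup.closure ({a, b} : Set D), ∃ k : ℕ, ∀ x : Q, φ (d ^ (p ^ k)) x = x := by
  obtain ⟨ρ, hρ⟩ : ∃ ρ : D →* Module.End ℤ (Additive Q),
      ∀ d v, ρ d v = Additive.ofMul (φ d (Additive.toMul v)) :=
    ⟨{ toFun := fun d => (MonoidHom.toAdditive (φ d)).toIntLinearMap
       map_one' := by
         ext v
         show Additive.ofMul (φ 1 (Additive.toMul v)) = v
         rw [map_one]; rfl
       map_mul' := by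
         intro d d'
         ext v
         show Additive.ofMul (φ (d * d') (Additive.toMul v))
           = Additive.ofMul (φ d (φ d' (Additive.toMul v)))
         rw [map_mul]; rfl }, fun d v => rfl⟩
  have hpV : ∀ v : Additive Q, p • v = 0 := by
    intro v
    rw [← ofMul_toMul v, ← ofMul_pow, hQ, ofMul_one]
  have quad : ∀ c : D, (∀ x : Q, φ c (φ c x) * x = φ c x * φ c x) →
      (ρ c - 1) * (ρ c - 1) = 0 := by
    intro c hc
    apply LinearMap.ext
    intro v
    have key : ρ c (ρ c v) + v = ρ c v + ρ c v := by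
      rw [hρ, hρ]
      exact congrArg Additive.ofMul (hc (Additive.toMul v))
    rw [Module.End.mul_apply, LinearMap.sub_apply, LinearMap.sub_apply, Module.End.one_apply,
      map_sub, Module.End.one_apply]
    calc ρ c (ρ c v) - ρ c v - (ρ c v - v) = (ρ c (ρ c v) + v) - (ρ c v + ρ c v) := by abel
      _ = 0 := by rw [key, sub_self]
  intro d hd
  obtain ⟨k, hk⟩ := core p hp hpV hodd ρ a b (quad a ha) (quad b hb) d hd
  refine ⟨k, fun x => ?_⟩
  rw [← map_pow] at hk
  have := congrArg (fun f : Module.End ℤ (Additive Q) => f (Additive.ofMul x)) hk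
  simp only [hρ, Module.End.one_apply] at this
  exact this

open scoped IsMulCommutative in
/-- Group version: an odd-order group generated by two quadratic elements acts on an elementary
abelian `p`-subgroup as a `p`-group. -/
theorem core_group {G : Type*} [Group G] [Finite G] (hodd : Odd (Nat.card G)) (p : ℕ)
    [Fact p.Prime] (hp : p ≠ 2) (P : Subgroup G) (hPc : ∀ x ∈ P, ∀ y ∈ P, x * y = y * x)
    (hPe : ∀ x ∈ P, x ^ p = 1) (a b : G) (haN : a ∈ Subgroup.normalizer (P : Set G))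
    (hbN : b ∈ Subgroup.normalizer (P : Set G))
    (ha : ∀ x ∈ P, ⁅⁅x, a⁆, a⁆ = 1) (hb : ∀ x ∈ P, ⁅⁅x, b⁆, b⁆ = 1) :
    ∀ d ∈ Subgroup.closure ({a, b} : Set G),
      ∃ k : ℕ, d ^ (p ^ k) ∈ Subgroup.centralizer (P : Set G) := by
  haveI : IsMulCommutative ↥P := ⟨⟨fun x y => Subtype.ext (hPc x x.2 y y.2)⟩⟩
  obtain ⟨φ, hφ⟩ : ∃ φ : ↥(Subgroup.normalizer (P : Set G)) →* Monoid.End ↥P,
      ∀ (n : ↥(Subgroup.normalizer (P : Set G))) (x : ↥P),
        ((φ n x : ↥P) : G) = (n : G) * (x : G) * (n : G)⁻¹ :=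
    ⟨{ toFun := fun n =>
        { toFun := fun x => ⟨n * x * n⁻¹, (Subgroup.mem_normalizer_iff.mp n.2 x).mp x.2⟩
          map_one' := by apply Subtype.ext; simp
          map_mul' := by intro x y; apply Subtype.ext; simp }
       map_one' := by
         apply MonoidHom.ext; intro x; apply Subtype.ext
         show ((1 : ↥(Subgroup.normalizer (P : Set G))) : G) * x
           * ((1 : ↥(Subgroup.normalizer (P : Set G))) : G)⁻¹ = x
         simp
       map_mul' := by
         intro n n'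
         apply MonoidHom.ext; intro x; apply Subtype.ext
         show ((n * n' : ↥(Subgroup.normalizer (P : Set G))) : G) * x * ((n * n' : ↥(Subgroup.normalizer (P : Set G))) : G)⁻¹
           = (n : G) * ((n' : G) * x * (n' : G)⁻¹) * (n : G)⁻¹
         rw [Subgroup.coe_mul]; group }, fun n x => rfl⟩
  haveI : Finite ↥P := inferInstance
  have hoddN : Odd (Nat.card ↥(Subgroup.normalizer (P : Set G))) :=
    Odd.of_dvd_nat hodd (Subgroup.card_subgroup_dvd_card _)
  have quad : ∀ c : G, ∀ hcN : c ∈ Subgroup.normalizer (P : Set G), (∀ x ∈ P, ⁅⁅x, c⁆, c⁆ = 1) →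
      ∀ x : ↥P, φ ⟨c, hcN⟩ (φ ⟨c, hcN⟩ x) * x = φ ⟨c, hcN⟩ x * φ ⟨c, hcN⟩ x := by
    intro c hcN hc x
    have hcomm : Commute ⁅(x : G), c⁆ c := commutatorElement_eq_one_iff_commute.mp (hc x x.2)
    rw [commutatorElement_def] at hcomm
    have h1 : c * ((x : G) * c * (x : G)⁻¹ * c⁻¹) * c⁻¹ = (x : G) * c * (x : G)⁻¹ * c⁻¹ := by
      rw [← hcomm.eq]; group
    have h2 : ((φ ⟨c, hcN⟩ x : ↥P) : G) * ((φ ⟨c, hcN⟩ (φ ⟨c, hcN⟩ x) : ↥P) : G)⁻¹
        = (x : G) * ((φ ⟨c, hcN⟩ x : ↥P) : G)⁻¹ := by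
      rw [hφ, hφ, hφ]
      calc c * (x : G) * c⁻¹ * (c * (c * (x : G) * c⁻¹) * c⁻¹)⁻¹
          = c * ((x : G) * c * (x : G)⁻¹ * c⁻¹) * c⁻¹ := by group
        _ = (x : G) * c * (x : G)⁻¹ * c⁻¹ := h1
        _ = (x : G) * (c * (x : G) * c⁻¹)⁻¹ := by group
    have h3 : φ ⟨c, hcN⟩ x * (φ ⟨c, hcN⟩ (φ ⟨c, hcN⟩ x))⁻¹ = x * (φ ⟨c, hcN⟩ x)⁻¹ := by
      apply Subtype.ext
      simpa using h2
    obtain ⟨y, hy⟩ : ∃ y : ↥P, y = φ ⟨c, hcN⟩ x := ⟨_, rfl⟩
    obtain ⟨z, hz⟩ : ∃ z : ↥P, z = φ ⟨c, hcN⟩ y := ⟨_, rfl⟩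
    rw [← hy, ← hz] at h3 ⊢
    calc z * x = x * z := mul_comm z x
      _ = x * (y⁻¹ * (y * z)) := by group
      _ = (x * y⁻¹) * (z * y) := by rw [mul_comm y z]; group
      _ = (y * z⁻¹) * (z * y) := by rw [h3]
      _ = y * y := by group
  intro d hd
  have hmap : Subgroup.closure ({a, b} : Set G)
      = (Subgroup.closure ({⟨a, haN⟩, ⟨b, hbN⟩} : Set ↥(Subgroup.normalizer (P : Set G)))).map
        (Subgroup.normalizer (P : Set G)).subtype := by
    rw [MonoidHom.map_closure, Set.image_pair]; rfl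
  rw [hmap] at hd
  obtain ⟨d', hd', rfl⟩ := hd
  obtain ⟨k, hk⟩ := core_mul (Q := ↥P) p hp (fun x => Subtype.ext (by simpa using hPe x x.2)) hoddN φ
    ⟨a, haN⟩ ⟨b, hbN⟩ (quad a haN ha) (quad b hbN hb) d' hd'
  refine ⟨k, ?_⟩
  rw [Subgroup.mem_centralizer_iff]
  intro x hx
  have h1 := congrArg (fun y : ↥P => (y : G)) (hk ⟨x, hx⟩)
  simp only [hφ] at h1
  have h2 : ((d' ^ p ^ k : ↥(Subgroup.normalizer (P : Set G))) : G)
      = ((Subgroup.normalizer (P : Set G)).subtype d') ^ p ^ k := by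
    simp
  rw [h2] at h1
  calc x * (Subgroup.normalizer (P : Set G)).subtype d' ^ p ^ k
      = ((Subgroup.normalizer (P : Set G)).subtype d' ^ p ^ k * x
          * ((Subgroup.normalizer (P : Set G)).subtype d' ^ p ^ k)⁻¹)
          * (Subgroup.normalizer (P : Set G)).subtype d' ^ p ^ k := by rw [h1]
    _ = (Subgroup.normalizer (P : Set G)).subtype d' ^ p ^ k * x := by group

/-- Stability group of a two-step chain: power of order of the bottom kills the action. -/
lemma pow_card_mem_centralizer {G : Type*} [Group G] (e : G) (P Q : Subgroup G) [Finite Q]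
    (heQ : e ∈ Subgroup.centralizer (Q : Set G)) (h : ∀ x ∈ P, ⁅x, e⁆ ∈ Q) :
    e ^ Nat.card Q ∈ Subgroup.centralizer (P : Set G) := by
  rw [Subgroup.mem_centralizer_iff]
  intro x hx
  obtain ⟨z, hz⟩ : ∃ z, z = ⁅x, e⁆ := ⟨_, rfl⟩
  have hzQ : z ∈ Q := by rw [hz]; exact h x hx
  have hze : z * e = e * z := Subgroup.mem_centralizer_iff.mp heQ z hzQ
  have h1 : x * e * x⁻¹ = z * e := by rw [hz, commutatorElement_def]; group
  have h2 : z ^ Nat.card Q = 1 := by
    have := congrArg Subtype.val (pow_card_eq_one' (G := Q) (x := ⟨z, hzQ⟩))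
    rw [Subgroup.coe_pow, Subgroup.coe_one] at this
    exact this
  have h3 : x * e ^ Nat.card Q * x⁻¹ = e ^ Nat.card Q := by
    rw [← conj_pow, h1, (show Commute z e from hze).mul_pow, h2, one_mul]
  calc x * e ^ Nat.card Q = (x * e ^ Nat.card Q * x⁻¹) * x := by group
    _ = e ^ Nat.card Q * x := by rw [h3]

universe u

/-- Inductive step. -/
lemma qp_step (p : ℕ) [Fact p.Prime] (n : ℕ)
    (IH : ∀ {G : Type u} [Group G] [Finite G], Odd (Nat.card G) → ∀ (P : Subgroup G),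
      IsPGroup p P → Nat.card P < n → ∀ (a b : G), a ∈ Subgroup.normalizer (P : Set G) →
      b ∈ Subgroup.normalizer (P : Set G) → (∀ x ∈ P, ⁅⁅x, a⁆, a⁆ = 1) →
      (∀ x ∈ P, ⁅⁅x, b⁆, b⁆ = 1) → ∀ d ∈ Subgroup.closure ({a, b} : Set G),
        ∃ k : ℕ, d ^ (p ^ k) ∈ Subgroup.centralizer (P : Set G))
    {G : Type u} [Group G] [Finite G] (hodd : Odd (Nat.card G)) (P : Subgroup G)
    (hP : IsPGroup p P) (hn : Nat.card P ≤ n)
    (Q : Subgroup G) (hQP : Q ≤ P) (hQ1 : ∃ q ∈ Q, q ≠ 1) (hQ2 : ∃ x ∈ P, x ∉ Q)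
    (hQN : ∀ g ∈ Subgroup.normalizer (P : Set G), g ∈ Subgroup.normalizer (Q : Set G))
    (a b : G) (haN : a ∈ Subgroup.normalizer (P : Set G))
    (hbN : b ∈ Subgroup.normalizer (P : Set G))
    (ha : ∀ x ∈ P, ⁅⁅x, a⁆, a⁆ = 1) (hb : ∀ x ∈ P, ⁅⁅x, b⁆, b⁆ = 1) :
    ∀ d ∈ Subgroup.closure ({a, b} : Set G),
      ∃ k : ℕ, d ^ (p ^ k) ∈ Subgroup.centralizer (P : Set G) := by
  intro d hd
  have hQp : IsPGroup p Q := hP.to_le hQP
  have hcardQ : Nat.card Q < Nat.card P := by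
    have hle := Subgroup.card_le_of_le hQP
    rcases lt_or_eq_of_le hle with h | h
    · exact h
    · exfalso
      obtain ⟨x, hxP, hxQ⟩ := hQ2
      have := Subgroup.eq_of_le_of_card_ge hQP h.ge
      rw [this] at hxQ
      exact hxQ hxP
  -- first induction: on `Q`
  obtain ⟨k₁, hk₁⟩ := IH hodd Q hQp (lt_of_lt_of_le hcardQ hn) a b (hQN a haN) (hQN b hbN)
    (fun x hx => ha x (hQP hx)) (fun x hx => hb x (hQP hx)) d hd
  -- the quotient
  obtain ⟨N, hNdef⟩ : ∃ N : Subgroup G, N = Subgroup.normalizer (Q : Set G) := ⟨_, rfl⟩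
  have hPN : P ≤ N := by
    rw [hNdef]
    exact fun x hx => hQN x (Subgroup.le_normalizer hx)
  have haNQ : a ∈ N := by rw [hNdef]; exact hQN a haN
  have hbNQ : b ∈ N := by rw [hNdef]; exact hQN b hbN
  haveI hQnn : (Q.subgroupOf N).Normal := by
    rw [hNdef]; exact Subgroup.normal_in_normalizer
  obtain ⟨π, hπ⟩ : ∃ π : ↥N →* ↥N ⧸ Q.subgroupOf N, π = QuotientGroup.mk' (Q.subgroupOf N) :=
    ⟨_, rfl⟩
  have hπker : ∀ x : ↥N, π x = 1 ↔ (x : G) ∈ Q := by
    intro x
    rw [hπ, QuotientGroup.mk'_apply, QuotientGroup.eq_one_iff, Subgroup.mem_subgroupOf]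
  have hoddbar : Odd (Nat.card (↥N ⧸ Q.subgroupOf N)) :=
    Odd.of_dvd_nat hodd ((Subgroup.card_quotient_dvd_card _).trans (Subgroup.card_subgroup_dvd_card _))
  obtain ⟨Pbar, hPbar⟩ : ∃ Pbar : Subgroup (↥N ⧸ Q.subgroupOf N),
      Pbar = (P.subgroupOf N).map π := ⟨_, rfl⟩
  have hPbarp : IsPGroup p Pbar := by
    rw [hPbar]
    exact (hP.comap_subtype (K := N)).map π
  have hcardbar : Nat.card Pbar < Nat.card P := by
    classical
    letI : Fintype ↥P := Fintype.ofFinite _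
    letI : Fintype ↥Pbar := Fintype.ofFinite _
    rw [Nat.card_eq_fintype_card, Nat.card_eq_fintype_card]
    refine Fintype.card_lt_of_surjective_not_injective
      (fun x : ↥P => (⟨π ⟨x, hPN x.2⟩, by
        rw [hPbar]
        exact Subgroup.mem_map_of_mem π (Subgroup.mem_subgroupOf.mpr x.2)⟩ : ↥Pbar)) ?_ ?_
    · rintro ⟨y, hy⟩
      rw [hPbar] at hy
      obtain ⟨x', hx', rfl⟩ := hy
      exact ⟨⟨x', Subgroup.mem_subgroupOf.mp hx'⟩, rfl⟩
    · intro hinj
      obtain ⟨q, hqQ, hq1⟩ := hQ1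
      have : (⟨q, hQP hqQ⟩ : ↥P) = 1 := by
        apply hinj
        apply Subtype.ext
        show π ⟨q, hPN (hQP hqQ)⟩ = π ⟨1, hPN (1 : ↥P).2⟩
        have e1 : π ⟨q, hPN (hQP hqQ)⟩ = 1 := (hπker _).mpr hqQ
        have e2 : π ⟨1, hPN (1 : ↥P).2⟩ = 1 := (hπker _).mpr Q.one_mem
        rw [e1, e2]
      exact hq1 (congrArg Subtype.val this)
  have hnormbar : ∀ c : G, ∀ hcN : c ∈ N, c ∈ Subgroup.normalizer (P : Set G) →
      π ⟨c, hcN⟩ ∈ Subgroup.normalizer (Pbar : Set (↥N ⧸ Q.subgroupOf N)) := by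
    intro c hcN hc
    rw [hPbar]
    apply Subgroup.le_normalizer_map π
    apply Subgroup.mem_map_of_mem
    rw [Subgroup.mem_normalizer_iff]
    intro h
    rw [Subgroup.mem_subgroupOf, Subgroup.mem_subgroupOf]
    exact Subgroup.mem_normalizer_iff.mp hc (h : G)
  have hquadbar : ∀ c : G, ∀ hcN : c ∈ N, (∀ x ∈ P, ⁅⁅x, c⁆, c⁆ = 1) →
      ∀ y ∈ Pbar, ⁅⁅y, π ⟨c, hcN⟩⁆, π ⟨c, hcN⟩⁆ = 1 := by
    intro c hcN hc y hy
    rw [hPbar] at hy
    obtain ⟨x', hx', rfl⟩ := hy
    rw [← map_commutatorElement, ← map_commutatorElement]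
    have : ⁅⁅x', (⟨c, hcN⟩ : ↥N)⁆, (⟨c, hcN⟩ : ↥N)⁆ = 1 := by
      apply Subtype.ext
      exact hc (x' : G) (Subgroup.mem_subgroupOf.mp hx')
    rw [this, map_one]
  -- lift `d`
  have hmap : Subgroup.closure ({a, b} : Set G)
      = (Subgroup.closure ({⟨a, haNQ⟩, ⟨b, hbNQ⟩} : Set ↥N)).map N.subtype := by
    rw [MonoidHom.map_closure, Set.image_pair]; rfl
  rw [hmap] at hd
  obtain ⟨d', hd', rfl⟩ := hd
  have hdbar : π d' ∈ Subgroup.closure ({π ⟨a, haNQ⟩, π ⟨b, hbNQ⟩} : Set (↥N ⧸ Q.subgroupOf N)) := by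
    have : Subgroup.closure ({π ⟨a, haNQ⟩, π ⟨b, hbNQ⟩} : Set (↥N ⧸ Q.subgroupOf N))
        = (Subgroup.closure ({⟨a, haNQ⟩, ⟨b, hbNQ⟩} : Set ↥N)).map π := by
      rw [MonoidHom.map_closure, Set.image_pair]
    rw [this]
    exact Subgroup.mem_map_of_mem π hd'
  obtain ⟨k₂, hk₂⟩ := IH hoddbar Pbar hPbarp (lt_of_lt_of_le hcardbar hn) (π ⟨a, haNQ⟩)
    (π ⟨b, hbNQ⟩) (hnormbar a haNQ haN) (hnormbar b hbNQ hbN) (hquadbar a haNQ ha)
    (hquadbar b hbNQ hb) (π d') hdbar
  -- combine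
  obtain ⟨e, he⟩ : ∃ e : G, e = (N.subtype d') ^ (p ^ (k₁ + k₂)) := ⟨_, rfl⟩
  have heQ : e ∈ Subgroup.centralizer (Q : Set G) := by
    rw [he, pow_add, pow_mul]
    exact Subgroup.pow_mem _ hk₁ _
  have hebar : π (d' ^ (p ^ (k₁ + k₂))) ∈ Subgroup.centralizer (Pbar : Set (↥N ⧸ Q.subgroupOf N)) := by
    rw [add_comm, pow_add, pow_mul, map_pow, map_pow]
    exact Subgroup.pow_mem _ hk₂ _
  have hcomm : ∀ x ∈ P, ⁅x, e⁆ ∈ Q := by
    intro x hx
    have h1 := Subgroup.mem_centralizer_iff.mp hebar (π ⟨x, hPN hx⟩) (by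
      rw [hPbar]; exact Subgroup.mem_map_of_mem π (Subgroup.mem_subgroupOf.mpr hx))
    have h2 : π ⁅(⟨x, hPN hx⟩ : ↥N), d' ^ (p ^ (k₁ + k₂))⁆ = 1 := by
      rw [map_commutatorElement, commutatorElement_eq_one_iff_commute]
      exact h1
    have h3 := (hπker _).mp h2
    have h4 := map_commutatorElement N.subtype (⟨x, hPN hx⟩ : ↥N) (d' ^ (p ^ (k₁ + k₂)))
    rw [map_pow] at h4
    have h5 : N.subtype ⁅(⟨x, hPN hx⟩ : ↥N), d' ^ (p ^ (k₁ + k₂))⁆ ∈ Q := h3
    rw [h4] at h5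
    rw [he]
    exact h5
  have hfin := pow_card_mem_centralizer e P Q heQ hcomm
  obtain ⟨t, ht⟩ := (IsPGroup.iff_card.mp hQp)
  refine ⟨k₁ + k₂ + t, ?_⟩
  rw [pow_add, pow_mul, ← he, ← ht]
  exact hfin

/-- The two-quadratic-elements theorem for arbitrary `p`-subgroups of odd-order groups. -/
theorem qp (p : ℕ) [Fact p.Prime] (hp : p ≠ 2) (n : ℕ) :
    ∀ {G : Type u} [Group G] [Finite G], Odd (Nat.card G) → ∀ (P : Subgroup G),
      IsPGroup p P → Nat.card P < n → ∀ (a b : G), a ∈ Subgroup.normalizer (P : Set G) →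
      b ∈ Subgroup.normalizer (P : Set G) → (∀ x ∈ P, ⁅⁅x, a⁆, a⁆ = 1) →
      (∀ x ∈ P, ⁅⁅x, b⁆, b⁆ = 1) → ∀ d ∈ Subgroup.closure ({a, b} : Set G),
        ∃ k : ℕ, d ^ (p ^ k) ∈ Subgroup.centralizer (P : Set G) := by
  induction n with
  | zero => intro G _ _ _ P _ h; exact absurd h (Nat.not_lt_zero _)
  | succ n IH =>
    intro G _ _ hodd P hP hn a b haN hbN ha hb
    have hn' : Nat.card P ≤ n := Nat.lt_succ_iff.mp hn
    by_cases hab : ∀ x ∈ P, ∀ y ∈ P, x * y = y * x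
    · by_cases hexp : ∀ x ∈ P, x ^ p = 1
      · exact core_group hodd p hp P hab hexp a b haN hbN ha hb
      · push_neg at hexp
        obtain ⟨x₀, hx₀P, hx₀⟩ := hexp
        obtain ⟨Q, hQ⟩ : ∃ Q : Subgroup G, ∀ x, x ∈ Q ↔ x ∈ P ∧ x ^ p = 1 :=
          ⟨{ carrier := {x | x ∈ P ∧ x ^ p = 1}
             mul_mem' := by
               intro x y hx hy
               refine ⟨P.mul_mem hx.1 hy.1, ?_⟩
               rw [(show Commute x y from hab x hx.1 y hy.1).mul_pow, hx.2, hy.2, one_mul]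
             one_mem' := ⟨P.one_mem, one_pow p⟩
             inv_mem' := by
               intro x hx
               exact ⟨P.inv_mem hx.1, by rw [inv_pow, hx.2, inv_one]⟩ }, fun x => Iff.rfl⟩
        refine qp_step p n IH hodd P hP hn' Q (fun x hx => ((hQ x).mp hx).1) ?_
          ⟨x₀, hx₀P, fun h => hx₀ ((hQ x₀).mp h).2⟩ ?_ a b haN hbN ha hb
        · have hdvd : p ∣ Nat.card P := by
            obtain ⟨k, hk⟩ := IsPGroup.iff_card.mp hP
            rcases Nat.eq_zero_or_pos k with rfl | hkpos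
            · exfalso
              rw [pow_zero] at hk
              have : P = ⊥ := Subgroup.card_eq_one.mp hk
              rw [this, Subgroup.mem_bot] at hx₀P
              rw [hx₀P, one_pow] at hx₀
              exact hx₀ rfl
            · rw [hk]; exact dvd_pow_self p hkpos.ne'
          obtain ⟨q, hq⟩ := exists_prime_orderOf_dvd_card' (G := ↥P) p hdvd
          refine ⟨(q : G), (hQ _).mpr ⟨q.2, ?_⟩, ?_⟩
          · have : q ^ p = 1 := by rw [← hq]; exact pow_orderOf_eq_one q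
            have := congrArg Subtype.val this
            rwa [Subgroup.coe_pow, Subgroup.coe_one] at this
          · intro h
            have : q = 1 := Subtype.ext h
            rw [this, orderOf_one] at hq
            exact (Fact.out : p.Prime).one_lt.ne hq
        · intro g hg
          rw [Subgroup.mem_normalizer_iff]
          intro h
          rw [hQ, hQ, conj_pow, conj_eq_one_iff]
          exact and_congr (Subgroup.mem_normalizer_iff.mp hg h) Iff.rfl
    · push_neg at hab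
      obtain ⟨x₁, hx₁, y₁, hy₁, hne⟩ := hab
      refine qp_step p n IH hodd P hP hn' (P ⊓ Subgroup.centralizer (P : Set G)) inf_le_left ?_
        ⟨y₁, hy₁, fun h => hne (Subgroup.mem_centralizer_iff.mp (Subgroup.mem_inf.mp h).2 x₁ hx₁)⟩
        ?_ a b haN hbN ha hb
      · haveI : Nontrivial ↥P := nontrivial_of_ne (⟨x₁, hx₁⟩ : ↥P) 1 (by
          intro h
          have : x₁ = 1 := congrArg Subtype.val h
          rw [this, one_mul, mul_one] at hne
          exact hne rfl)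
        haveI := hP.center_nontrivial
        obtain ⟨⟨z, hz⟩, hz1⟩ := exists_ne (1 : Subgroup.center ↥P)
        refine ⟨(z : G), Subgroup.mem_inf.mpr ⟨z.2, ?_⟩, ?_⟩
        · rw [Subgroup.mem_centralizer_iff]
          intro h hh
          have := Subgroup.mem_center_iff.mp hz ⟨h, hh⟩
          exact congrArg Subtype.val this
        · intro h
          exact hz1 (Subtype.ext (Subtype.ext h))
      · intro g hg
        have hconj : ∀ g ∈ Subgroup.normalizer (P : Set G), ∀ h ∈ Subgroup.centralizer (P : Set G),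
            g * h * g⁻¹ ∈ Subgroup.centralizer (P : Set G) := by
          intro g hg h hh
          rw [Subgroup.mem_centralizer_iff] at hh ⊢
          intro y hy
          have hy' : g⁻¹ * y * g ∈ P := by
            have := (Subgroup.mem_normalizer_iff.mp hg (g⁻¹ * y * g))
            rw [this]
            have e : g * (g⁻¹ * y * g) * g⁻¹ = y := by group
            rw [e]; exact hy
          have h1 := hh _ hy'
          calc y * (g * h * g⁻¹) = g * ((g⁻¹ * y * g) * h) * g⁻¹ := by group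
            _ = g * (h * (g⁻¹ * y * g)) * g⁻¹ := by rw [h1]
            _ = g * h * g⁻¹ * y := by group
        rw [Subgroup.mem_normalizer_iff]
        intro h
        rw [Subgroup.mem_inf, Subgroup.mem_inf]
        refine and_congr (Subgroup.mem_normalizer_iff.mp hg h) ⟨hconj g hg h, fun hh => ?_⟩
        have := hconj g⁻¹ (Subgroup.inv_mem _ hg) _ hh
        have e : g⁻¹ * (g * h * g⁻¹) * g⁻¹⁻¹ = h := by group
        rwa [e] at this

/-- Odd-order groups are `p`-stable (element form): a quadratic element of `N_G(P)` maps into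
a normal `p`-subgroup of `N_G(P)/C_G(P)`. -/
theorem pstable {G : Type u} [Group G] [Finite G] (hodd : Odd (Nat.card G)) (p : ℕ)
    [Fact p.Prime] (hp : p ≠ 2) (P : Subgroup G) (hP : IsPGroup p P) (a : G)
    (haN : a ∈ Subgroup.normalizer (P : Set G)) (ha : ∀ x ∈ P, ⁅⁅x, a⁆, a⁆ = 1) :
    ∃ K : Subgroup (↥(Subgroup.normalizer (P : Set G)) ⧸
        (Subgroup.centralizer (P : Set G)).subgroupOf (Subgroup.normalizer (P : Set G))),
      K.Normal ∧ IsPGroup p K ∧
        QuotientGroup.mk' ((Subgroup.centralizer (P : Set G)).subgroupOf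
          (Subgroup.normalizer (P : Set G))) ⟨a, haN⟩ ∈ K := by
  obtain ⟨π, hπ⟩ : ∃ π : ↥(Subgroup.normalizer (P : Set G)) →*
      ↥(Subgroup.normalizer (P : Set G)) ⧸
        (Subgroup.centralizer (P : Set G)).subgroupOf (Subgroup.normalizer (P : Set G)),
      π = QuotientGroup.mk' ((Subgroup.centralizer (P : Set G)).subgroupOf
          (Subgroup.normalizer (P : Set G))) := ⟨_, rfl⟩
  rw [← hπ]
  have hπsurj : Function.Surjective π := by rw [hπ]; exact QuotientGroup.mk'_surjective _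
  have hπker : ∀ x : ↥(Subgroup.normalizer (P : Set G)),
      π x = 1 ↔ (x : G) ∈ Subgroup.centralizer (P : Set G) := by
    intro x
    rw [hπ, QuotientGroup.mk'_apply, QuotientGroup.eq_one_iff, Subgroup.mem_subgroupOf]
  have key : ∀ n : ↥(Subgroup.normalizer (P : Set G)),
      IsPGroup p ↥(Subgroup.closure ({π ⟨a, haN⟩, π (n * ⟨a, haN⟩ * n⁻¹)} :
        Set (↥(Subgroup.normalizer (P : Set G)) ⧸
          (Subgroup.centralizer (P : Set G)).subgroupOf (Subgroup.normalizer (P : Set G))))) := by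
    intro n
    have hbN : (n : G) * a * (n : G)⁻¹ ∈ Subgroup.normalizer (P : Set G) :=
      (n * ⟨a, haN⟩ * n⁻¹).2
    have hb : ∀ x ∈ P, ⁅⁅x, (n : G) * a * (n : G)⁻¹⁆, (n : G) * a * (n : G)⁻¹⁆ = 1 := by
      intro x hx
      have hx' : (n : G)⁻¹ * x * (n : G) ∈ P := by
        have := (Subgroup.mem_normalizer_iff.mp n.2 ((n : G)⁻¹ * x * (n : G)))
        rw [this]
        have e : (n : G) * ((n : G)⁻¹ * x * (n : G)) * (n : G)⁻¹ = x := by group
        rw [e]; exact hx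
      have h1 := ha _ hx'
      have h2 := congrArg (MulAut.conj (n : G)) h1
      rw [map_one] at h2
      have h3 : MulAut.conj (n : G) ⁅⁅(n : G)⁻¹ * x * (n : G), a⁆, a⁆
          = ⁅⁅x, (n : G) * a * (n : G)⁻¹⁆, (n : G) * a * (n : G)⁻¹⁆ := by
        simp only [commutatorElement_def, MulAut.conj_apply]; group
      rw [← h3, h2]
    intro y
    obtain ⟨y, hy⟩ := y
    have hmap1 : Subgroup.closure ({π ⟨a, haN⟩, π (n * ⟨a, haN⟩ * n⁻¹)} :
        Set (↥(Subgroup.normalizer (P : Set G)) ⧸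
          (Subgroup.centralizer (P : Set G)).subgroupOf (Subgroup.normalizer (P : Set G))))
        = (Subgroup.closure ({⟨a, haN⟩, n * ⟨a, haN⟩ * n⁻¹} :
            Set ↥(Subgroup.normalizer (P : Set G)))).map π := by
      rw [MonoidHom.map_closure, Set.image_pair]
    rw [hmap1] at hy
    obtain ⟨d', hd', rfl⟩ := hy
    have hmap2 : Subgroup.closure ({a, (n : G) * a * (n : G)⁻¹} : Set G)
        = (Subgroup.closure ({⟨a, haN⟩, n * ⟨a, haN⟩ * n⁻¹} :
            Set ↥(Subgroup.normalizer (P : Set G)))).map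
            (Subgroup.normalizer (P : Set G)).subtype := by
      rw [MonoidHom.map_closure, Set.image_pair]; rfl
    have hd : (d' : G) ∈ Subgroup.closure ({a, (n : G) * a * (n : G)⁻¹} : Set G) := by
      rw [hmap2]; exact Subgroup.mem_map_of_mem _ hd'
    obtain ⟨k, hk⟩ := qp p hp (Nat.card P + 1) hodd P hP (Nat.lt_succ_self _) a
      ((n : G) * a * (n : G)⁻¹) haN hbN ha hb (d' : G) hd
    refine ⟨k, ?_⟩
    apply Subtype.ext
    show π d' ^ p ^ k = 1
    rw [← map_pow, hπker]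
    simpa using hk
  obtain ⟨X, hX⟩ : ∃ X : Subgroup (↥(Subgroup.normalizer (P : Set G)) ⧸
      (Subgroup.centralizer (P : Set G)).subgroupOf (Subgroup.normalizer (P : Set G))),
      X = Subgroup.zpowers (π ⟨a, haN⟩) := ⟨_, rfl⟩
  have hsup : ∀ g : ↥(Subgroup.normalizer (P : Set G)) ⧸
      (Subgroup.centralizer (P : Set G)).subgroupOf (Subgroup.normalizer (P : Set G)),
      IsPGroup p ↥(X ⊔ X.map (MulAut.conj g).toMonoidHom) := by
    intro g
    obtain ⟨n, rfl⟩ := hπsurj g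
    have e : X ⊔ X.map (MulAut.conj (π n)).toMonoidHom
        = Subgroup.closure ({π ⟨a, haN⟩, π (n * ⟨a, haN⟩ * n⁻¹)} :
        Set (↥(Subgroup.normalizer (P : Set G)) ⧸
          (Subgroup.centralizer (P : Set G)).subgroupOf (Subgroup.normalizer (P : Set G)))) := by
      rw [hX, MonoidHom.map_zpowers, Subgroup.zpowers_eq_closure, Subgroup.zpowers_eq_closure,
        ← Subgroup.closure_union]
      congr 1
      rw [Set.singleton_union]
      congr 1
      simp [MulAut.conj_apply]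
    rw [e]
    exact key n
  have hXp : IsPGroup p X := (hsup 1).to_le le_sup_left
  obtain ⟨K, hKn, hKp, hXK⟩ := Cfsg.Agent.S0199.result X hXp hsup
  exact ⟨K, hKn, hKp, hXK (by rw [hX]; exact Subgroup.mem_zpowers _)⟩

end Cfsg.Agent.Lib.Helper5.QuadPair
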