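import Mathlib
import Cfsg.Prelude.Def_LocalEven
import Cfsg.Agent.Lib.Helper5.QuadPair2
import Cfsg.Agent.Lib.Helper9.Cores

set_option autoImplicit false

namespace Cfsg.Agent.Lib.Helper5.QuadPair

open Cfsg
open scoped commutatorElement

universe v

/-- Groups of odd order are `p`-stable in the normalizer form, for every odd prime `p`. -/
theorem isNormalizerPStable_of_odd {G : Type v} [Group G] [Finite G] (hodd : Odd (Nat.card G))
    (p : ℕ) [Fact p.Prime] (hp : p ≠ 2) : Cfsg.IsNormalizerPStable p G := by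
  intro P hP g hg hq
  have hq' : ∀ x ∈ P, ⁅⁅x, g⁆, g⁆ = 1 := by
    intro x hx
    have h1 : ⁅⁅x, g⁆, g⁆ ∈ ⁅⁅P, Subgroup.zpowers g⁆, Subgroup.zpowers g⁆ :=
      Subgroup.commutator_mem_commutator
        (Subgroup.commutator_mem_commutator hx (Subgroup.mem_zpowers g)) (Subgroup.mem_zpowers g)
    rw [hq] at h1
    exact Subgroup.mem_bot.mp h1
  obtain ⟨K, hKn, hKp, hK⟩ := pstable hodd p hp P hP g hg hq'
  exact Cfsg.Agent.Lib.Helper9.le_pCore hKn hKp hK

end Cfsg.Agent.Lib.Helper5.QuadPair
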