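import Mathlib

set_option autoImplicit false

namespace Cfsg.Agent.Lib.Helper5.Reg2

open Matrix

structure M2 where
  a : ℕ
  b : ℕ
  c : ℕ
  d : ℕ

def look (T w i : ℕ) : ℕ := T / 2 ^ (w * i) % 2 ^ w

def act (p : ℕ) (g : M2) (n : ℕ) : ℕ :=
  ((g.a * (n / p) + g.b * (n % p)) % p) * p + ((g.c * (n / p) + g.d * (n % p)) % p)

def allBelow (f : ℕ → Bool) : ℕ → Bool
  | 0 => true
  | k + 1 => f k && allBelow f k

theorem allBelow_spec (f : ℕ → Bool) (N : ℕ) (h : allBelow f N = true) :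
    ∀ i < N, f i = true := by
  induction N with
  | zero => intro i hi; omega
  | succ k ih =>
    intro i hi
    simp only [allBelow, Bool.and_eq_true] at h
    rcases Nat.lt_succ_iff_lt_or_eq.mp hi with h1 | h1
    · exact ih h.2 i h1
    · rw [h1]; exact h.1

def dec (p n : ℕ) : Fin 2 → ZMod p := ![((n / p : ℕ) : ZMod p), ((n % p : ℕ) : ZMod p)]

def enc (p : ℕ) (v : Fin 2 → ZMod p) : ℕ := (v 0).val * p + (v 1).val

def mat (p : ℕ) (g : M2) : Matrix (Fin 2) (Fin 2) (ZMod p) :=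
  !![(g.a : ZMod p), (g.b : ZMod p); (g.c : ZMod p), (g.d : ZMod p)]

theorem enc_lt (p : ℕ) [NeZero p] (v : Fin 2 → ZMod p) : enc p v < p * p := by
  have h0 := ZMod.val_lt (v 0)
  have h1 := ZMod.val_lt (v 1)
  unfold enc
  nlinarith

theorem dec_enc (p : ℕ) [NeZero p] (v : Fin 2 → ZMod p) : dec p (enc p v) = v := by
  have hp : 0 < p := Nat.pos_of_ne_zero (NeZero.ne p)
  have h1 := ZMod.val_lt (v 1)
  have e1 : ((v 0).val * p + (v 1).val) / p = (v 0).val := by
    rw [Nat.add_comm, Nat.add_mul_div_right _ _ hp, Nat.div_eq_of_lt h1, zero_add]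
  have e2 : ((v 0).val * p + (v 1).val) % p = (v 1).val := by
    rw [Nat.add_comm, Nat.add_mul_mod_self_right, Nat.mod_eq_of_lt h1]
  unfold dec enc
  rw [e1, e2]
  ext i
  fin_cases i
  · simp
  · simp

theorem enc_dec (p : ℕ) [NeZero p] (n : ℕ) (hn : n < p * p) : enc p (dec p n) = n := by
  have hp : 0 < p := Nat.pos_of_ne_zero (NeZero.ne p)
  have h1 : n / p < p := Nat.div_lt_of_lt_mul hn
  have h2 : n % p < p := Nat.mod_lt _ hp
  unfold enc dec
  simp only [Matrix.cons_val_zero, Matrix.cons_val_one, ZMod.val_natCast]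
  rw [Nat.mod_eq_of_lt h1, Nat.mod_eq_of_lt h2]
  exact Nat.div_add_mod' n p

theorem dec_zero (p : ℕ) : dec p 0 = 0 := by
  unfold dec
  ext i
  fin_cases i <;> simp

theorem act_lt (p : ℕ) [NeZero p] (g : M2) (n : ℕ) : act p g n < p * p := by
  have hp : 0 < p := Nat.pos_of_ne_zero (NeZero.ne p)
  have h1 : (g.a * (n / p) + g.b * (n % p)) % p < p := Nat.mod_lt _ hp
  have h2 : (g.c * (n / p) + g.d * (n % p)) % p < p := Nat.mod_lt _ hp
  unfold act
  nlinarith

theorem mat_mulVec_dec (p : ℕ) [NeZero p] (g : M2) (n : ℕ) :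
    mat p g *ᵥ dec p n = dec p (act p g n) := by
  have hp : 0 < p := Nat.pos_of_ne_zero (NeZero.ne p)
  have h2 : (g.c * (n / p) + g.d * (n % p)) % p < p := Nat.mod_lt _ hp
  have e1 : act p g n / p = (g.a * (n / p) + g.b * (n % p)) % p := by
    unfold act
    rw [Nat.add_comm, Nat.add_mul_div_right _ _ hp, Nat.div_eq_of_lt h2, zero_add]
  have e2 : act p g n % p = (g.c * (n / p) + g.d * (n % p)) % p := by
    unfold act
    rw [Nat.add_comm, Nat.add_mul_mod_self_right, Nat.mod_eq_of_lt h2]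
  ext i
  fin_cases i
  · simp only [mat, dec, Matrix.mulVec, dotProduct, Fin.sum_univ_two, e1, e2]
    simp [ZMod.natCast_mod]
  · simp only [mat, dec, Matrix.mulVec, dotProduct, Fin.sum_univ_two, e1, e2]
    simp [ZMod.natCast_mod]

def reach (p : ℕ) (gA gB gC : M2) (T : ℕ) : ℕ → ℕ → Bool
  | 0, n => Nat.beq n p
  | k + 1, n => Nat.beq n p ||
      ((cond (Nat.beq (look T 16 n % 4) 0) (Nat.beq (act p gA (look T 16 n / 4)) n)
        (cond (Nat.beq (look T 16 n % 4) 1) (Nat.beq (act p gB (look T 16 n / 4)) n)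
          (Nat.beq (act p gC (look T 16 n / 4)) n))) &&
        reach p gA gB gC T k (look T 16 n / 4))

def eqv (p : ℕ) (g : M2) (T n : ℕ) : Bool :=
  Nat.beq (look T 16 (act p g n)) (act p g (look T 16 n))

section main

variable {p : ℕ}

theorem mv_mul (g h : GL (Fin 2) (ZMod p)) (v : Fin 2 → ZMod p) :
    ((g * h : GL (Fin 2) (ZMod p)) : Matrix (Fin 2) (Fin 2) (ZMod p)) *ᵥ v =
      (g : Matrix (Fin 2) (Fin 2) (ZMod p)) *ᵥ ((h : Matrix (Fin 2) (Fin 2) (ZMod p)) *ᵥ v) := by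
  rw [Matrix.mulVec_mulVec]
  rfl

theorem mv_one (v : Fin 2 → ZMod p) :
    ((1 : GL (Fin 2) (ZMod p)) : Matrix (Fin 2) (Fin 2) (ZMod p)) *ᵥ v = v := by
  rw [Units.val_one, Matrix.one_mulVec]

theorem mv_inv (g : GL (Fin 2) (ZMod p)) (v : Fin 2 → ZMod p) :
    ((g⁻¹ : GL (Fin 2) (ZMod p)) : Matrix (Fin 2) (Fin 2) (ZMod p)) *ᵥ
      ((g : Matrix (Fin 2) (Fin 2) (ZMod p)) *ᵥ v) = v := by
  rw [← mv_mul, inv_mul_cancel, mv_one]

theorem mv_inv' (g : GL (Fin 2) (ZMod p)) (v : Fin 2 → ZMod p) :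
    (g : Matrix (Fin 2) (Fin 2) (ZMod p)) *ᵥ
      (((g⁻¹ : GL (Fin 2) (ZMod p)) : Matrix (Fin 2) (Fin 2) (ZMod p)) *ᵥ v) = v := by
  rw [← mv_mul, mul_inv_cancel, mv_one]

theorem mv_ne_zero (g : GL (Fin 2) (ZMod p)) (v : Fin 2 → ZMod p) (hv : v ≠ 0) :
    (g : Matrix (Fin 2) (Fin 2) (ZMod p)) *ᵥ v ≠ 0 := by
  intro h
  apply hv
  rw [← mv_inv g v, h, Matrix.mulVec_zero]

variable [NeZero p]

theorem regular_of_TF (hp1 : 1 < p) (H : Subgroup (GL (Fin 2) (ZMod p)))
    (hT : ∀ v : Fin 2 → ZMod p, v ≠ 0 →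
      ∃ h ∈ H, (h : Matrix (Fin 2) (Fin 2) (ZMod p)) *ᵥ ![1, 0] = v)
    (hF : ∀ h ∈ H, (h : Matrix (Fin 2) (Fin 2) (ZMod p)) *ᵥ ![1, 0] = ![1, 0] → h = 1) :
    Nat.card H = p * p - 1 ∧ ∀ v w : Fin 2 → ZMod p, v ≠ 0 → w ≠ 0 →
      ∃! h : H, Matrix.mulVec ((h : GL (Fin 2) (ZMod p)) : Matrix (Fin 2) (Fin 2) (ZMod p)) v
        = w := by
  classical
  have hfact : Fact (1 < p) := ⟨hp1⟩
  have he1 : (![1, 0] : Fin 2 → ZMod p) ≠ 0 := by
    intro h
    have h1 := congrFun h 0
    simp at h1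
  constructor
  · have hbij : Function.Bijective (fun h : H =>
        (⟨((h : GL (Fin 2) (ZMod p)) : Matrix (Fin 2) (Fin 2) (ZMod p)) *ᵥ ![1, 0],
        mv_ne_zero _ _ he1⟩ : {v : Fin 2 → ZMod p // v ≠ 0})) := by
      constructor
      · intro h h' hh
        have h1 : ((h : GL (Fin 2) (ZMod p)) : Matrix (Fin 2) (Fin 2) (ZMod p)) *ᵥ ![1, 0] =
            ((h' : GL (Fin 2) (ZMod p)) : Matrix (Fin 2) (Fin 2) (ZMod p)) *ᵥ ![1, 0] :=
          congrArg Subtype.val hh
        have h2 : ((h'⁻¹ * h : H) : GL (Fin 2) (ZMod p)) = 1 := by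
          apply hF _ (h'⁻¹ * h).2
          rw [Subgroup.coe_mul, Subgroup.coe_inv, mv_mul, h1, mv_inv]
        have h3 : h'⁻¹ * h = 1 := Subtype.ext h2
        exact (inv_mul_eq_one.mp h3).symm
      · rintro ⟨v, hv⟩
        obtain ⟨h, hh, hhv⟩ := hT v hv
        exact ⟨⟨h, hh⟩, Subtype.ext hhv⟩
    rw [Nat.card_congr (Equiv.ofBijective _ hbij), Nat.card_eq_fintype_card,
      Fintype.card_subtype_compl, Fintype.card_subtype_eq, Fintype.card_fun, ZMod.card,
      Fintype.card_fin]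
    congr 1
    ring
  · intro v w hv hw
    obtain ⟨h₁, hh₁, hv₁⟩ := hT v hv
    obtain ⟨h₂, hh₂, hw₂⟩ := hT w hw
    refine ⟨⟨h₂ * h₁⁻¹, H.mul_mem hh₂ (H.inv_mem hh₁)⟩, ?_, ?_⟩
    · show ((h₂ * h₁⁻¹ : GL (Fin 2) (ZMod p)) : Matrix (Fin 2) (Fin 2) (ZMod p)) *ᵥ v = w
      rw [mv_mul, ← hv₁, mv_inv, hw₂]
    · rintro ⟨h', hh'⟩ hh'v
      have hh'v' : (h' : Matrix (Fin 2) (Fin 2) (ZMod p)) *ᵥ v = w := hh'v
      apply Subtype.ext
      show h' = h₂ * h₁⁻¹
      have h3 : h₂⁻¹ * h' * h₁ = 1 := by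
        apply hF _ (H.mul_mem (H.mul_mem (H.inv_mem hh₂) hh') hh₁)
        rw [mv_mul, mv_mul, hv₁, hh'v', ← hw₂, mv_inv]
      have h4 : h' = h₂ * (h₂⁻¹ * h' * h₁) * h₁⁻¹ := by group
      rw [h4, h3, mul_one]

theorem regular_of_cert (hp1 : 1 < p) (A B C : GL (Fin 2) (ZMod p)) (gA gB gC : M2)
    (hA : (A : Matrix (Fin 2) (Fin 2) (ZMod p)) = mat p gA)
    (hB : (B : Matrix (Fin 2) (Fin 2) (ZMod p)) = mat p gB)
    (hC : (C : Matrix (Fin 2) (Fin 2) (ZMod p)) = mat p gC)
    (predT phiT K : ℕ)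
    (h1 : allBelow (fun n => Nat.beq n 0 || reach p gA gB gC predT K n) (p * p) = true)
    (h2 : allBelow (fun n => Nat.beq n 0 ||
      (eqv p gA phiT n && eqv p gB phiT n && eqv p gC phiT n)) (p * p) = true)
    (h3 : look phiT 16 p = 1) :
    Nat.card (Subgroup.closure ({A, B, C} : Set (GL (Fin 2) (ZMod p)))) = p * p - 1 ∧
      ∀ v w : Fin 2 → ZMod p, v ≠ 0 → w ≠ 0 →
        ∃! h : Subgroup.closure ({A, B, C} : Set (GL (Fin 2) (ZMod p))),
          Matrix.mulVec ((h : GL (Fin 2) (ZMod p)) : Matrix (Fin 2) (Fin 2) (ZMod p)) v = w := by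
  classical
  have hfact : Fact (1 < p) := ⟨hp1⟩
  have hp : 0 < p := by omega
  have hAmem : A ∈ Subgroup.closure ({A, B, C} : Set (GL (Fin 2) (ZMod p))) :=
    Subgroup.subset_closure (by simp)
  have hBmem : B ∈ Subgroup.closure ({A, B, C} : Set (GL (Fin 2) (ZMod p))) :=
    Subgroup.subset_closure (by simp)
  have hCmem : C ∈ Subgroup.closure ({A, B, C} : Set (GL (Fin 2) (ZMod p))) :=
    Subgroup.subset_closure (by simp)
  have hdecp : dec p p = ![1, 0] := by
    unfold dec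
    rw [Nat.div_self hp, Nat.mod_self]
    simp
  have hdec1 : dec p 1 = ![0, 1] := by
    unfold dec
    rw [Nat.div_eq_of_lt hp1, Nat.mod_eq_of_lt hp1]
    simp
  have hence1 : enc p ![1, 0] = p := by
    unfold enc
    simp [ZMod.val_one]
  have hne : ∀ v : Fin 2 → ZMod p, v ≠ 0 → enc p v ≠ 0 := by
    intro v hv h0
    apply hv
    rw [← dec_enc p v, h0, dec_zero]
  apply regular_of_TF hp1
  · -- transitivity
    have hreach : ∀ (k n : ℕ), reach p gA gB gC predT k n = true →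
        ∃ h ∈ Subgroup.closure ({A, B, C} : Set (GL (Fin 2) (ZMod p))),
          (h : Matrix (Fin 2) (Fin 2) (ZMod p)) *ᵥ ![1, 0] = dec p n := by
      intro k
      induction k with
      | zero =>
        intro n hn
        have hn' : n = p := Nat.eq_of_beq_eq_true hn
        exact ⟨1, Subgroup.one_mem _, by rw [mv_one, hn', hdecp]⟩
      | succ k ih =>
        intro n hn
        simp only [reach, Bool.or_eq_true, Bool.and_eq_true] at hn
        rcases hn with hn | ⟨hstep, hrec⟩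
        · have hn' : n = p := Nat.eq_of_beq_eq_true hn
          exact ⟨1, Subgroup.one_mem _, by rw [mv_one, hn', hdecp]⟩
        · obtain ⟨h', hh', hh'v⟩ := ih _ hrec
          have key : ∃ (G : GL (Fin 2) (ZMod p)) (g : M2),
              G ∈ Subgroup.closure ({A, B, C} : Set (GL (Fin 2) (ZMod p))) ∧
              (G : Matrix (Fin 2) (Fin 2) (ZMod p)) = mat p g ∧
              act p g (look predT 16 n / 4) = n := by
            by_cases c0 : Nat.beq (look predT 16 n % 4) 0 = true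
            · rw [c0, cond_true] at hstep
              exact ⟨A, gA, hAmem, hA, Nat.eq_of_beq_eq_true hstep⟩
            · rw [Bool.not_eq_true] at c0
              rw [c0, cond_false] at hstep
              by_cases c1 : Nat.beq (look predT 16 n % 4) 1 = true
              · rw [c1, cond_true] at hstep
                exact ⟨B, gB, hBmem, hB, Nat.eq_of_beq_eq_true hstep⟩
              · rw [Bool.not_eq_true] at c1
                rw [c1, cond_false] at hstep
                exact ⟨C, gC, hCmem, hC, Nat.eq_of_beq_eq_true hstep⟩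
          obtain ⟨G, g, hGmem, hGmat, hGact⟩ := key
          refine ⟨G * h', Subgroup.mul_mem _ hGmem hh', ?_⟩
          rw [mv_mul, hh'v, hGmat, mat_mulVec_dec, hGact]
    intro v hv
    have hn := allBelow_spec _ _ h1 (enc p v) (enc_lt p v)
    simp only [Bool.or_eq_true] at hn
    rcases hn with hn | hn
    · exact absurd (Nat.eq_of_beq_eq_true hn) (hne v hv)
    · obtain ⟨h, hh, hhv⟩ := hreach K _ hn
      exact ⟨h, hh, by rw [hhv, dec_enc]⟩
  · -- freeness
    have hE : ∀ h ∈ Subgroup.closure ({A, B, C} : Set (GL (Fin 2) (ZMod p))),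
        ∀ v : Fin 2 → ZMod p, v ≠ 0 →
          dec p (look phiT 16 (enc p ((h : Matrix (Fin 2) (Fin 2) (ZMod p)) *ᵥ v))) =
            (h : Matrix (Fin 2) (Fin 2) (ZMod p)) *ᵥ dec p (look phiT 16 (enc p v)) := by
      have hgen : ∀ (G : GL (Fin 2) (ZMod p)) (g : M2),
          (G : Matrix (Fin 2) (Fin 2) (ZMod p)) = mat p g →
          (∀ n, n < p * p → n ≠ 0 → eqv p g phiT n = true) →
          ∀ v : Fin 2 → ZMod p, v ≠ 0 →
          dec p (look phiT 16 (enc p ((G : Matrix (Fin 2) (Fin 2) (ZMod p)) *ᵥ v))) =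
            (G : Matrix (Fin 2) (Fin 2) (ZMod p)) *ᵥ dec p (look phiT 16 (enc p v)) := by
        intro G g hG hg v hv
        have h5 := Nat.eq_of_beq_eq_true (hg (enc p v) (enc_lt p v) (hne v hv))
        rw [hG, mat_mulVec_dec, ← h5]
        conv_lhs => rw [← dec_enc p v, mat_mulVec_dec, enc_dec p _ (act_lt p g _)]
      have hall : ∀ n, n < p * p → n ≠ 0 →
          eqv p gA phiT n = true ∧ eqv p gB phiT n = true ∧ eqv p gC phiT n = true := by
        intro n hn hn0
        have h5 := allBelow_spec _ _ h2 n hn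
        simp only [Bool.or_eq_true, Bool.and_eq_true] at h5
        rcases h5 with h5 | h5
        · exact absurd (Nat.eq_of_beq_eq_true h5) hn0
        · exact ⟨h5.1.1, h5.1.2, h5.2⟩
      intro h hh
      induction hh using Subgroup.closure_induction with
      | mem x hx =>
        simp only [Set.mem_insert_iff, Set.mem_singleton_iff] at hx
        rcases hx with rfl | rfl | rfl
        · exact hgen _ gA hA (fun n hn hn0 => (hall n hn hn0).1)
        · exact hgen _ gB hB (fun n hn hn0 => (hall n hn hn0).2.1)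
        · exact hgen _ gC hC (fun n hn hn0 => (hall n hn hn0).2.2)
      | one =>
        intro v hv
        rw [mv_one, mv_one]
      | mul x y hx hy ihx ihy =>
        intro v hv
        rw [mv_mul, ihx _ (mv_ne_zero y v hv), ihy v hv, mv_mul]
      | inv x hx ihx =>
        intro v hv
        have h5 := ihx _ (mv_ne_zero x⁻¹ v hv)
        rw [mv_inv'] at h5
        rw [h5, mv_inv]
    intro h hh hfix
    have h6 := hE h hh ![1, 0] (by
      intro h0
      have h7 := congrFun h0 0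
      simp at h7)
    rw [hfix, hence1, h3, hdec1] at h6
    apply Units.ext
    ext i j
    fin_cases j
    · have h8 := congrFun hfix i
      simp only [Matrix.mulVec, dotProduct, Fin.sum_univ_two] at h8
      simp only [Matrix.cons_val_zero, Matrix.cons_val_one, mul_one, mul_zero,
        add_zero] at h8
      rw [Units.val_one]
      fin_cases i
      · simpa using h8
      · simpa using h8
    · have h8 := congrFun h6.symm i
      simp only [Matrix.mulVec, dotProduct, Fin.sum_univ_two] at h8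
      simp only [Matrix.cons_val_zero, Matrix.cons_val_one, mul_one, mul_zero,
        zero_add] at h8
      rw [Units.val_one]
      fin_cases i
      · simpa using h8
      · simpa using h8

end main

end Cfsg.Agent.Lib.Helper5.Reg2
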